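import Cfsg.Agent.Lib.InvChar.FischerHexad
import Cfsg.Agent.Lib.Fischer.Recognition.Pre.Def
/-
InvChar: hexads of commuting 3-transpositions in groups of type M(22).
-/

set_option autoImplicit false
set_option linter.style.haveILetI false

namespace CfsgLib.Pre22

open CfsgLib.Fischer CfsgLib.InvChar.FischerHexad

open CfsgLib.Fischer CfsgLib.InvChar.FischerProducts CfsgLib.InvChar.UnitaryTVTwo

variable {G : Type*} [Group G] [Finite G] {D : Set G}

section Witness

variable (hG : Good D) {d : G} (hd : d ∈ D) {H : Subgroup G} (hH : H = Subgroup.closure (perp D d))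
  {F : Type} [Field F] [Fintype F] (hF : Fintype.card F = 4) (e : (H ⧸ Subgroup.center H) ≃* Cfsg.PSU 6 F 2)

include hG hd hH

include hF e

end Witness

theorem local_of_type22 (hD : Cfsg.IsThreeTranspositionGroup D) (hprim : Cfsg.IsPrimitiveUnderConj D)
    (h : PreM22 G D) : Local D := by
  obtain ⟨hZ, d, hd, c₀, -, -, ⟨F, _, _, hF, ⟨e⟩⟩, -⟩ := h
  have hG := good_of_primitive hD hprim hZ
  let H : Subgroup G := Subgroup.closure (perp D d)
  refine ⟨fun a ha b hb c hc hbc hcomm => ?_, fun a ha b hb b' hb' => ?_⟩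
  · obtain ⟨g, hg⟩ := hprim.1 d hd a ha
    rw [← hg, ← MulAut.conj_apply] at hb hc
    obtain ⟨x, hx, rfl⟩ := perp_conj_inv hD g hb
    obtain ⟨y, hy, rfl⟩ := perp_conj_inv hD g hc
    have hxy : Commute x y := (MulAut.conj g).injective (by rw [map_mul, map_mul]; exact hcomm.eq)
    obtain ⟨S, hS⟩ := hexad_witness hG hd (H := H) rfl hF e hx hy (fun k => hbc (k ▸ rfl)) hxy
    rw [← hg, ← MulAut.conj_apply]
    have hDm : ∀ z, MulAut.conj g z ∈ D ↔ z ∈ D := fun z =>
      ⟨fun hz => by simpa [MulAut.conj_apply, mul_assoc] using hD.2.1 g⁻¹ _ hz, hD.2.1 g z⟩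
    have hcm : ∀ z w, Commute (MulAut.conj g z) (MulAut.conj g w) ↔ Commute z w := fun z w =>
      ⟨fun k => (MulAut.conj g).injective (by rw [map_mul, map_mul]; exact k.eq), fun k => k.map _⟩
    refine ⟨S.map (MulAut.conj g), hS.nodup.map (MulAut.conj g).injective, by simp [hS.len], ?_, ?_,
      List.mem_map_of_mem hS.memA, fun z => ?_, ?_⟩
    · intro z hz
      obtain ⟨u, hu, rfl⟩ := List.mem_map.1 hz
      exact (hDm u).2 (hS.sub u hu)
    · intro z hz w hw
      obtain ⟨u, hu, rfl⟩ := List.mem_map.1 hz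
      obtain ⟨v, hv, rfl⟩ := List.mem_map.1 hw
      exact (hS.comm u hu v hv).map _
    · obtain ⟨u, rfl⟩ := (MulAut.conj g).surjective z
      rw [List.mem_map_of_injective (MulAut.conj g).injective, hS.mem_iff]
      constructor
      · rintro ⟨huD, hu⟩
        refine ⟨(hDm u).2 huD, fun f hf k1 k2 k3 => ?_⟩
        obtain ⟨f, rfl⟩ := (MulAut.conj g).surjective f
        rw [hcm] at k1 k2 k3 ⊢
        exact hu f ((hDm f).1 hf) k1 k2 k3
      · rintro ⟨huD, hu⟩
        refine ⟨(hDm u).1 huD, fun f hf k1 k2 k3 => (hcm f u).1 (hu _ ((hDm f).2 hf) ?_ ?_ ?_)⟩ <;>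
          rw [hcm] <;> assumption
    · intro f hf
      obtain ⟨f, hf', rfl⟩ := perp_conj_inv hD g hf
      rw [← map_list_prod]
      exact (hS.fix f hf').map _
  · obtain ⟨g, hg⟩ := hprim.1 d hd a ha
    rw [← hg, ← MulAut.conj_apply] at hb hb' ⊢
    obtain ⟨x, hx, rfl⟩ := perp_conj_inv hD g hb
    obtain ⟨y, hy, rfl⟩ := perp_conj_inv hD g hb'
    obtain ⟨h, hh, rfl⟩ := trans_witness hG hd (H := H) rfl hF e hx hy
    refine ⟨MulAut.conj g h, ?_, by simp only [map_mul, map_inv]⟩
    have : H.map (MulAut.conj g).toMonoidHom ≤ Subgroup.closure (perp D (MulAut.conj g d)) := by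
      rw [MonoidHom.map_closure]
      exact Subgroup.closure_mono (by rintro _ ⟨z, hz, rfl⟩; exact perp_conj hD g hz)
    exact this ⟨h, hh, rfl⟩

/-- A product of three commuting members arises exactly twice. -/
theorem exists_two_factorizations (hD : Cfsg.IsThreeTranspositionGroup D) (hprim : Cfsg.IsPrimitiveUnderConj D)
    (h : PreM22 G D) {l₀ : List G} (hn₀ : l₀.Nodup) (hlen₀ : l₀.length = 3) (hsub₀ : ∀ x ∈ l₀, x ∈ D)
    (hcomm₀ : ∀ x ∈ l₀, ∀ y ∈ l₀, Commute x y) :
    ∃ l₂ : List G, (l₂.Nodup ∧ l₂.length = 3 ∧ (∀ x ∈ l₂, x ∈ D) ∧ (∀ x ∈ l₂, ∀ y ∈ l₂, Commute x y) ∧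
      l₂.prod = l₀.prod) ∧ ¬ (∀ x, x ∈ l₀ ↔ x ∈ l₂) ∧
      ∀ l : List G, l.Nodup → l.length = 3 → (∀ x ∈ l, x ∈ D) → (∀ x ∈ l, ∀ y ∈ l, Commute x y) →
        l.prod = l₀.prod → (∀ x, x ∈ l ↔ x ∈ l₀) ∨ (∀ x, x ∈ l ↔ x ∈ l₂) := by
  classical
  have hG := good_of_primitive hD hprim h.1
  have hL := local_of_type22 hD hprim h
  match l₀, hlen₀ with
  | [a, b, c], _ =>
    simp only [List.nodup_cons, List.mem_cons, List.not_mem_nil, or_false, not_or] at hn₀
    obtain ⟨⟨hab, hac⟩, hbc, -⟩ := hn₀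
    have ha : a ∈ D := hsub₀ a (by simp)
    have hb : b ∈ perp D a := ⟨hsub₀ b (by simp), Ne.symm hab, hcomm₀ a (by simp) b (by simp)⟩
    have hc : c ∈ perp D a := ⟨hsub₀ c (by simp), Ne.symm hac, hcomm₀ a (by simp) c (by simp)⟩
    have hcbc := hcomm₀ b (by simp) c (by simp)
    obtain ⟨S, hS⟩ := hL.hexad a ha b hb c hc hbc hcbc
    have hS1 := hexad_prod_eq_one hD hprim h.1 hL ha hb hc hbc hcbc hS
    set l₀ := [a, b, c] with hl₀
    have hn₀ : l₀.Nodup := by simp [hl₀, hab, hac, hbc]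
    have h0S : ∀ x ∈ l₀, x ∈ S := by
      intro x hx
      rw [hS.mem_iff]
      refine ⟨hsub₀ x hx, fun f _ k1 k2 k3 => ?_⟩
      simp only [hl₀, List.mem_cons, List.not_mem_nil, or_false] at hx
      rcases hx with rfl | rfl | rfl
      exacts [k1, k2, k3]
    let l₂ := S.filter (fun x => decide (x ∉ l₀))
    have hl₂ : ∀ x, x ∈ l₂ ↔ x ∈ S ∧ x ∉ l₀ := fun x => by simp [l₂, List.mem_filter]
    have hperm : S.Perm (l₀ ++ l₂) := by
      refine (List.perm_ext_iff_of_nodup hS.nodup (List.nodup_append'.2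
        ⟨hn₀, hS.nodup.filter _, fun x hx hx2 => ((hl₂ x).1 hx2).2 hx⟩)).2 fun x => ?_
      rw [List.mem_append, hl₂]
      exact ⟨fun hx => if h' : x ∈ l₀ then Or.inl h' else Or.inr ⟨hx, h'⟩, fun hx => hx.elim (h0S x) And.left⟩
    have hlen₂ : l₂.length = 3 := by
      have := hperm.length_eq
      rw [hS.len, List.length_append] at this
      simp [hl₀] at this
      omega
    have hsq := prod_sq (l := l₀) (fun x hx => sq_eq_one hD.1 (hsub₀ x hx)) hcomm₀
    have hprod₂ : l₂.prod = l₀.prod := by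
      have := (prod_perm hperm hS.comm).symm.trans hS1
      rw [List.prod_append] at this
      exact mul_left_cancel (this.trans hsq.symm)
    refine ⟨l₂, ⟨hS.nodup.filter _, hlen₂, fun x hx => hS.sub x ((hl₂ x).1 hx).1,
      fun x hx y hy => hS.comm x ((hl₂ x).1 hx).1 y ((hl₂ y).1 hy).1, hprod₂⟩,
      fun k => ((hl₂ a).1 ((k a).1 (by simp [hl₀]))).2 (by simp [hl₀]), ?_⟩
    intro l hn hlen hsub hcomm hp
    by_cases hshare : ∃ x ∈ l, x ∈ l₀
    · left
      obtain ⟨x, hx, hx₀⟩ := hshare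
      have e1 := prod_perm (List.perm_cons_erase hx) hcomm
      have e2 := prod_perm (List.perm_cons_erase hx₀) hcomm₀
      rw [List.prod_cons] at e1 e2
      have hpair := factorization_unique hD.1 2 (by norm_num) (fun _ => noUnit_four hG) (fun k => absurd k (by norm_num))
        (l.erase x) (l₀.erase x) (hn.erase x) (hn₀.erase x) (by rw [List.length_erase_of_mem hx, hlen])
        (by rw [List.length_erase_of_mem hx₀]; simp [hl₀]) (fun y hy => hsub y (List.mem_of_mem_erase hy))
        (fun y hy => hsub₀ y (List.mem_of_mem_erase hy))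
        (fun y hy z hz => hcomm y (List.mem_of_mem_erase hy) z (List.mem_of_mem_erase hz))
        (fun y hy z hz => hcomm₀ y (List.mem_of_mem_erase hy) z (List.mem_of_mem_erase hz))
        (mul_left_cancel (e1.symm.trans (hp.trans e2)))
      intro y
      by_cases hy : y = x
      · subst hy; exact iff_of_true hx hx₀
      · rw [← List.mem_erase_of_ne hy, hpair, List.mem_erase_of_ne hy]
    · right
      push Not at hshare
      have hcross : ∀ f ∈ l, ∀ x ∈ l₀, Commute f x := by
        intro f hf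
        refine commute_of_short hD.1 (hsub f hf) hsub₀ hn₀ hcomm₀ ?_ (by simp [hl₀])
        rw [← hp]
        exact Commute.list_prod_right l f fun y hy => hcomm f hf y hy
      have hdisj : ∀ x ∈ l, x ∉ l₀ := hshare
      have hn6 : (l₀ ++ l).Nodup := List.nodup_append'.2 ⟨hn₀, hn, fun x hx hx' => hdisj x hx' hx⟩
      have hc6 : ∀ x ∈ l₀ ++ l, ∀ y ∈ l₀ ++ l, Commute x y := by
        intro x hx y hy
        rcases List.mem_append.1 hx with hx | hx <;> rcases List.mem_append.1 hy with hy | hy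
        · exact hcomm₀ x hx y hy
        · exact (hcross y hy x hx).symm
        · exact hcross x hx y hy
        · exact hcomm x hx y hy
      have hs6 : ∀ x ∈ l₀ ++ l, x ∈ D := fun x hx => (List.mem_append.1 hx).elim (hsub₀ x) (hsub x)
      have hp6 : (l₀ ++ l).prod = 1 := by rw [List.prod_append, hp, hsq]
      have hlS : ∀ x ∈ l, x ∈ l₂ := by
        intro x hx
        rw [hl₂]
        refine ⟨(hS.mem_iff x).2 ⟨hsub x hx, fun f hf k1 k2 k3 => ?_⟩, hdisj x hx⟩
        rcases weight hD.1 hf hs6 hn6 hc6 (by rw [hp6]; exact Commute.one_right f) with k | ⟨W, hW, h4, hWf⟩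
        · exact k x (List.mem_append_right _ hx)
        · exfalso
          have hWl : W ⊆ l := by
            intro y hy
            rcases List.mem_append.1 (hW.subset hy) with hy' | hy'
            · exfalso
              simp only [hl₀, List.mem_cons, List.not_mem_nil, or_false] at hy'
              rcases hy' with rfl | rfl | rfl
              exacts [hWf _ hy k1, hWf _ hy k2, hWf _ hy k3]
            · exact hy'
          have := (hn6.sublist hW).subperm hWl |>.length_le
          omega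
      exact fun x => ((hn.subperm hlS).perm_of_length_le (by omega)).mem_iff

end CfsgLib.Pre22
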