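import Cfsg.Agent.Lib.Fischer.TypeTwentyTwo
import Cfsg.Agent.Lib.Fischer.Recognition.Pre.Hexad

/-!
Groups of type M(22): each member `d` of the class lies in the group `H` generated by the members
commuting with it, `Z(H) = ⟨d⟩`, `H` is quasisimple and the whole group is simple.
-/

set_option autoImplicit false
set_option linter.unusedSectionVars false

namespace CfsgLib.Pre22

open CfsgLib.Fischer CfsgLib.Fischer.TypeTwentyTwo CfsgLib.Fischer.TypeTwentyTwo

open CfsgLib.Fischer CfsgLib.InvChar.FischerProducts CfsgLib.InvChar.FischerHexad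
open CfsgLib.InvChar.UnitaryTVTwo CfsgLib.Fischer.UnitaryHyperoval

variable {G : Type*} [Group G] [Finite G] {D : Set G}

/-- The local unitary quotient at every member, for a conjugate set. -/
theorem exists_equiv_of_conj (hD : Cfsg.IsThreeTranspositionGroup D)
    (hconj : ∀ a ∈ D, ∀ b ∈ D, ∃ g : G, g * a * g⁻¹ = b) (h : PreM22 G D) {d : G} (hd : d ∈ D) :
    ∃ (F : Type) (_ : Field F) (_ : Fintype F), Fintype.card F = 4 ∧
      Nonempty ((Subgroup.closure (perp D d) ⧸ Subgroup.center (Subgroup.closure (perp D d))) ≃*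
        Cfsg.PSU 6 F 2) := by
  obtain ⟨-, d₀, hd₀, c₀, -, -, ⟨F, iF, iF', hF, ⟨e⟩⟩, -⟩ := h
  refine ⟨F, iF, iF', hF, ?_⟩
  obtain ⟨g, hg⟩ := hconj d₀ hd₀ d hd
  have hmap : (Subgroup.closure (perp D d₀)).map (MulAut.conj g).toMonoidHom =
      Subgroup.closure (perp D d) := by
    rw [MonoidHom.map_closure]
    congr 1
    rw [← hg, ← MulAut.conj_apply]
    ext y
    constructor
    · rintro ⟨x, hx, rfl⟩
      exact CfsgLib.InvChar.FischerHexad.perp_conj hD g hx
    · intro hy
      obtain ⟨x, hx, rfl⟩ := perp_conj_inv hD g hy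
      exact ⟨x, hx, rfl⟩
  let eH : ↥(Subgroup.closure (perp D d₀)) ≃* ↥(Subgroup.closure (perp D d)) :=
    ((MulAut.conj g).subgroupMap _).trans (MulEquiv.subgroupCongr hmap)
  exact ⟨(QuotientGroup.congr (Subgroup.center (Subgroup.closure (perp D d₀))) (Subgroup.center _) eH
    (map_center eH)).symm.trans e⟩

/-- The local unitary quotient at every member. -/
theorem exists_equiv_of_type22 (hD : Cfsg.IsThreeTranspositionGroup D)
    (hprim : Cfsg.IsPrimitiveUnderConj D) (h : PreM22 G D) {d : G} (hd : d ∈ D) :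
    ∃ (F : Type) (_ : Field F) (_ : Fintype F), Fintype.card F = 4 ∧
      Nonempty ((Subgroup.closure (perp D d) ⧸ Subgroup.center (Subgroup.closure (perp D d))) ≃*
        Cfsg.PSU 6 F 2) :=
  exists_equiv_of_conj hD hprim.1 h hd

variable (hD : Cfsg.IsThreeTranspositionGroup D) (hprim : Cfsg.IsPrimitiveUnderConj D)
  (ht : PreM22 G D)

include hD hprim ht

theorem perp_nonempty {d : G} (hd : d ∈ D) : (perp D d).Nonempty := by
  obtain ⟨F, _, _, hF, ⟨e⟩⟩ := exists_equiv_of_type22 hD hprim ht hd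
  rcases (perp D d).eq_empty_or_nonempty with h0 | h0
  · exfalso
    obtain ⟨hsimp, -, -⟩ := psu_six hF (X := _ ⧸ Subgroup.center (Subgroup.closure (perp D d))) e
    obtain ⟨x, y, hxy⟩ := hsimp.exists_pair_ne
    obtain ⟨x, rfl⟩ := QuotientGroup.mk_surjective x
    obtain ⟨y, rfl⟩ := QuotientGroup.mk_surjective y
    have hsub : ∀ z : Subgroup.closure (perp D d), z = 1 := fun z => by
      have := z.2
      simp only [h0, Subgroup.closure_empty, Subgroup.mem_bot] at this
      exact Subtype.ext this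
    exact hxy (by rw [hsub x, hsub y])
  · exact h0

theorem connected : (Cfsg.commutingGraph D).Connected := by
  obtain ⟨d, hd, -⟩ := id hprim.2.1
  obtain ⟨b, hb⟩ := perp_nonempty hD hprim ht hd
  exact connected_of_primitive hD hprim ⟨d, hd, b, hb.1, fun e => hb.2.1 e.symm, hb.2.2⟩

theorem memberSet_nonempty {d : G} (hd : d ∈ D) :
    (memberSet D d (Subgroup.closure (perp D d))).Nonempty := by
  obtain ⟨b, hb⟩ := perp_nonempty hD hprim ht hd
  exact ⟨⟨b, Subgroup.subset_closure hb⟩, hb⟩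

/-- `d` is a product of members commuting with it. -/
theorem mem_closure_perp {d : G} (hd : d ∈ D) : d ∈ Subgroup.closure (perp D d) := by
  have hG := good_of_primitive hD hprim ht.1
  obtain ⟨F, _, _, hF, ⟨e⟩⟩ := exists_equiv_of_type22 hD hprim ht hd
  let H : Subgroup G := Subgroup.closure (perp D d)
  obtain ⟨hT, hconj⟩ := image_tt hG hd (H := H) rfl e
  have hne := (memberSet_nonempty hD hprim ht hd).image (quotMap e)
  have hp := fun i => pv_mem hF (by norm_num) hT hconj hne (herm_plane hF ..)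
    (plane_ne_zero (a := (![(1 : F), 0] : Fin 2 → F) i) (b := (![(0 : F), 1] : Fin 2 → F) i) (c := 0) (by
      fin_cases i <;> simp))
  obtain ⟨x, hx, hxe⟩ := hp 0
  obtain ⟨y, hy, hye⟩ := hp 1
  have hxy : (x : G) ≠ y := by
    intro h
    rw [show x = y from Subtype.ext h] at hxe
    obtain ⟨k, hk⟩ := pv_eq_span hF (by norm_num) (herm_plane hF ..) (herm_plane hF ..)
      (plane_ne_zero (Or.inl (show (![(1 : F), 0] : Fin 2 → F) 0 ≠ 0 by simp))) (hxe.symm.trans hye)
    simpa [plane] using congrFun hk 0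
  have hc : Commute (x : G) y := commute_of_quotMap hG hd (H := H) rfl e hx hy (by
    rw [hxe, hye]
    exact (tv_commute hF (herm_plane hF ..) (herm_plane hF ..) (herm_plane hF ..)).map (QuotientGroup.mk' _))
  have hL := local_of_type22 hD hprim ht
  obtain ⟨S, hS⟩ := hL.hexad d hd x hx y hy hxy hc
  have h1 := hexad_prod_eq_one hD hprim ht.1 hL hd hx hy hxy hc hS
  classical
  have h2 := prod_perm (List.perm_cons_erase hS.memA) hS.comm
  rw [h1, List.prod_cons] at h2
  have hinv : d = (S.erase d).prod⁻¹ := eq_inv_of_mul_eq_one_left h2.symm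
  suffices h3 : (S.erase d).prod⁻¹ ∈ Subgroup.closure (perp D d) by rwa [← hinv] at h3
  refine inv_mem (list_prod_mem fun z hz => Subgroup.subset_closure ?_)
  exact ⟨hS.sub z (List.mem_of_mem_erase hz), ((hS.nodup.mem_erase_iff).1 hz).1,
    hS.comm d hS.memA z (List.mem_of_mem_erase hz)⟩

theorem eq_of_commute_perp {d : G} (hd : d ∈ D) {z : G} (hzd : Commute z d)
    (hzc : ∀ f ∈ perp D d, Commute z f) : z = 1 ∨ z = d := by
  have hG := good_of_primitive hD hprim ht.1
  have hconn := connected hD hprim ht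
  obtain ⟨e, he⟩ := perp_nonempty hD hprim ht hd
  have hde : d ∈ perp D e := ⟨hd, fun k => he.2.1 k.symm, he.2.2.symm⟩
  obtain ⟨c, hce, hdc⟩ := not_central hG he.1 hde
  have hd2 : d * d = 1 := sq_eq_one hD.1 hd
  have hcent : ∀ u : G, Commute u d → (∀ f ∈ perp D d, Commute u f) → Commute u c → u = 1 := by
    intro u hud huf huc
    have hle : perpGroup D d ⊔ Subgroup.zpowers c ≤ Subgroup.centralizer ({u} : Set G) := by
      refine sup_le ((Subgroup.closure_le _).2 fun y hy => ?_) ?_
      · refine Subgroup.mem_centralizer_singleton_iff.2 ?_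
        by_cases hyd : y = d
        · exact hyd ▸ hud.symm.eq
        · exact (huf y ⟨hy.1, hyd, hy.2⟩).symm.eq
      · rw [Subgroup.zpowers_le]
        exact Subgroup.mem_centralizer_singleton_iff.2 huc.symm.eq
    rw [perpGroup_sup_eq_top hD hprim hconn hd hce.1 hdc] at hle
    have : u ∈ Subgroup.center G := mem_center hD.2.2 fun b _ =>
      (Subgroup.mem_centralizer_singleton_iff.1 (hle (Subgroup.mem_top b))).symm
    rwa [ht.1, Subgroup.mem_bot] at this
  -- the conjugate of `c`
  obtain ⟨c', hc'⟩ : ∃ c', c' = z * c * z⁻¹ := ⟨_, rfl⟩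
  have hze : Commute z e := hzc e he
  have hc'e : c' ∈ perp D e := by
    have := CfsgLib.InvChar.FischerHexad.perp_conj hD z hce
    rw [MulAut.conj_apply, MulAut.conj_apply, hze.eq, mul_inv_cancel_right] at this
    rwa [hc']
  have hc'd : ¬ Commute d c' := by
    intro h
    have e1 : d = z * d * z⁻¹ := by rw [hzd.eq, mul_inv_cancel_right]
    rw [hc', e1, conj_commute_iff] at h
    exact hdc h
  obtain ⟨F, _, _, hF, ⟨eq⟩⟩ := exists_equiv_of_type22 hD hprim ht he.1
  let H : Subgroup G := Subgroup.closure (perp D e)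
  obtain ⟨hT, hconjT⟩ := image_tt hG he.1 (H := H) rfl eq
  let d₁ : H := ⟨d, mem_of_perp rfl hde⟩
  let c₁ : H := ⟨c, mem_of_perp rfl hce⟩
  let c₂ : H := ⟨c', mem_of_perp rfl hc'e⟩
  obtain ⟨v, hv, hv0, hdv⟩ := exists_pv_of_mem hF (by norm_num) hT hconjT ⟨d₁, hde, rfl⟩
  obtain ⟨w, hw, hw0, hcw⟩ := exists_pv_of_mem hF (by norm_num) hT hconjT ⟨c₁, hce, rfl⟩
  obtain ⟨r, hr, hr0, hcr⟩ := exists_pv_of_mem hF (by norm_num) hT hconjT ⟨c₂, hc'e, rfl⟩
  have hcomm : ∀ (x y : H) {v w : Fin 6 → F} (hv : Cfsg.hermForm 6 F 2 v v = 0) (hw : Cfsg.hermForm 6 F 2 w w = 0),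
      x ∈ memberSet D e H → y ∈ memberSet D e H → quotMap eq x = pv hF v hv → quotMap eq y = pv hF w hw →
      Cfsg.hermForm 6 F 2 v w = 0 → Commute (x : G) y := by
    intro x y v w hv hw hx hy ex ey h
    refine commute_of_quotMap hG he.1 (H := H) rfl eq hx hy ?_
    rw [ex, ey]
    exact (tv_commute hF hv hw h).map (QuotientGroup.mk' _)
  have hnd : d₁ ∈ memberSet D e H := hde
  have hvw : Cfsg.hermForm 6 F 2 v w ≠ 0 := fun h => hdc (hcomm d₁ c₁ hv hw hde hce hdv hcw h)
  have hrv : Cfsg.hermForm 6 F 2 r v ≠ 0 := fun h => hc'd (hcomm c₂ d₁ hr hv hc'e hde hcr hdv h).symm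
  have hperp : ∀ k, Cfsg.hermForm 6 F 2 k k = 0 → Cfsg.hermForm 6 F 2 k v = 0 →
      Cfsg.hermForm 6 F 2 k w = 0 → Cfsg.hermForm 6 F 2 k r = 0 := by
    intro k hk hkv hkw
    by_cases hk0 : k = 0
    · subst hk0; exact (conj hF).zero_left _
    obtain ⟨f, hf, hfk⟩ := pv_mem hF (by norm_num) hT hconjT ⟨_, d₁, hde, rfl⟩ hk hk0
    have hfd : Commute (f : G) d := hcomm f d₁ hk hv hf hde hfk hdv hkv
    have hfc : Commute (f : G) c := hcomm f c₁ hk hw hf hce hfk hcw hkw
    have hne : (f : G) ≠ d := fun h => hdc (h ▸ hfc)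
    have hzf : Commute z (f : G) := hzc f ⟨hf.1, hne, hfd.symm⟩
    have hfc' : Commute (f : G) c' := by
      rw [hc']
      exact (hzf.symm.mul_right hfc).mul_right hzf.symm.inv_right
    refine herm_eq_zero_of_commute hF (by norm_num) hk hr ?_
    rw [← hfk, ← hcr]
    exact (show Commute f c₂ from Subtype.ext hfc'.eq).map _
  rcases pv_eq_or_conj hF (by norm_num) hv hw hr hvw hrv hperp with h | h
  · left
    have : c₂ = c₁ := quotMap_inj hG he.1 (H := H) rfl eq hc'e hce (hcr.trans (h.trans hcw.symm))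
    have hzc' : z * c * z⁻¹ = c := hc'.symm.trans (congrArg Subtype.val this)
    exact hcent z hzd hzc (mul_inv_eq_iff_eq_mul.1 hzc')
  · right
    have : c₂ = d₁ * c₁ * d₁⁻¹ := quotMap_inj hG he.1 (H := H) rfl eq hc'e
      ((memberSet_tt hG.tt rfl).2.1 d₁ _ hce) (hcr.trans (h.trans (by rw [map_mul, map_mul, map_inv, hdv, hcw])))
    have hzc' : z * c * z⁻¹ = d * c * d⁻¹ := hc'.symm.trans (congrArg Subtype.val this)
    have h1 : d⁻¹ * z = 1 := by
      refine hcent _ ((Commute.refl d).inv_left.mul_left hzd) (fun f hf => hf.2.2.inv_left.mul_left (hzc f hf)) ?_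
      refine mul_inv_eq_iff_eq_mul.1 (?_ : d⁻¹ * z * c * (d⁻¹ * z)⁻¹ = c)
      calc d⁻¹ * z * c * (d⁻¹ * z)⁻¹ = d⁻¹ * (z * c * z⁻¹) * d := by group
        _ = c := by rw [hzc']; group
    exact (inv_mul_eq_one.1 h1).symm

theorem center_le {d : G} (hd : d ∈ D) {z : G} (hz : z ∈ Subgroup.closure (perp D d))
    (hzc : ∀ f ∈ perp D d, Commute z f) : z = 1 ∨ z = d :=
  eq_of_commute_perp hD hprim ht hd (commute_d (H := Subgroup.closure (perp D d)) rfl hz).symm hzc

theorem center_eq {d : G} (hd : d ∈ D) :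
    Subgroup.center (Subgroup.closure (perp D d)) =
      (Subgroup.zpowers d).subgroupOf (Subgroup.closure (perp D d)) := by
  refine le_antisymm (fun z hz => ?_) (fun z hz => ?_)
  · rw [Subgroup.mem_subgroupOf]
    rcases center_le hD hprim ht hd z.2 (fun f hf =>
      (congrArg Subtype.val (Subgroup.mem_center_iff.1 hz ⟨f, Subgroup.subset_closure hf⟩)).symm) with h | h
    · rw [h]; exact one_mem _
    · rw [h]; exact Subgroup.mem_zpowers d
  · rw [Subgroup.mem_subgroupOf] at hz
    obtain ⟨k, hk⟩ := Subgroup.mem_zpowers_iff.1 hz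
    refine Subgroup.mem_center_iff.2 fun g => Subtype.ext ?_
    have hgd : Commute (g : G) d := (commute_d rfl g.2).symm
    show (g : G) * (z : G) = (z : G) * g
    rw [← hk]
    exact (hgd.zpow_right k).eq

/-- Six pairwise commuting members of `perp D d` with product `d`. -/
theorem exists_six {d : G} (hd : d ∈ D) :
    ∃ u : Fin 6 → Subgroup.closure (perp D d), (∀ i, (u i : G) ∈ perp D d) ∧
      (∀ i j, Commute (u i : G) (u j)) ∧ (∀ i j, (u i : G) = u j → i = j) ∧
      ((List.ofFn u).prod : G) = d := by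
  classical
  have hG := good_of_primitive hD hprim ht.1
  obtain ⟨F, _, _, hF, ⟨e⟩⟩ := exists_equiv_of_type22 hD hprim ht hd
  let H : Subgroup G := Subgroup.closure (perp D d)
  obtain ⟨hT, hconj⟩ := image_tt hG hd (H := H) rfl e
  have hneH := memberSet_nonempty hD hprim ht hd
  have hcentre : ∀ z : H, quotMap e z = 1 → (z : G) = 1 ∨ (z : G) = d := fun z hz => by
    have hz' := (quotMap_eq_one e).1 hz
    exact center_le hD hprim ht hd z.2 (fun f hf =>
      (congrArg Subtype.val (Subgroup.mem_center_iff.1 hz' ⟨f, Subgroup.subset_closure hf⟩)).symm)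
  obtain ⟨θ, hθ, hθn, hθ0, hθ1, -⟩ := exists_theta hF
  have hlift : ∀ (μ : F) (i : Fin 6), ∃ x ∈ memberSet D d H, quotMap e x = ovalPV hF θ μ i := fun μ i =>
    pv_mem hF (by norm_num) hT hconj (hneH.image _) (herm_plane hF ..) (plane_ne_zero (by
      by_contra h
      push Not at h
      exact oval_ne_zero hF θ μ i (Prod.ext h.1 (Prod.ext h.2.1 h.2.2))))
  choose U hU hUe using hlift
  have hUc : ∀ μ μ' i j, Commute (U μ i : G) (U μ' j) := fun μ μ' i j =>
    commute_of_quotMap hG hd (H := H) rfl e (hU μ i) (hU μ' j) (by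
      rw [hUe, hUe]; exact ovalPV_commute hF θ μ θ μ' i j)
  by_contra hcon
  push Not at hcon
  have hUprod : ∀ μ, μ ≠ 0 → ((List.ofFn (U μ)).prod : H) = 1 := by
    intro μ hμ
    have h1 : quotMap e (List.ofFn (U μ)).prod = 1 := by
      rw [map_list_prod, List.map_ofFn, show (quotMap e ∘ U μ) = ovalPV hF θ μ from funext (hUe μ)]
      exact ovalPV_prod hF hθ hθn hμ
    rcases hcentre _ h1 with h | h
    · exact Subtype.ext h
    · refine absurd h (hcon (U μ) (hU μ) (hUc μ μ) fun i j h => ?_)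
      exact ovalPV_injective hF hθ0 hθ1 hθ (by rw [← hUe μ i, ← hUe μ j, show U μ i = U μ j from Subtype.ext h])
  have hUinj : ∀ μ i j, (U μ i : G) = U μ j → i = j := fun μ i j h =>
    ovalPV_injective hF hθ0 hθ1 hθ (by rw [← hUe μ i, ← hUe μ j, show U μ i = U μ j from Subtype.ext h])
  have hfix : ∀ i : Fin 3, (U θ (Fin.castLE (by norm_num) i) : G) = U 1 (Fin.castLE (by norm_num) i) := by
    intro i
    refine congrArg Subtype.val (quotMap_inj hG hd (H := H) rfl e (hU _ _) (hU _ _) ?_)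
    rw [hUe, hUe]
    fin_cases i <;> rfl
  -- the two complementary triples
  let a : Fin 6 → G := fun i => U 1 i
  let T₁ : List G := [(U 1 0 : G), (U 1 1 : G), (U 1 2 : G)]
  let T : F → List G := fun μ => [(U μ 3 : G), (U μ 4 : G), (U μ 5 : G)]
  have hT1prop : T₁.Nodup ∧ T₁.length = 3 ∧ (∀ x ∈ T₁, x ∈ D) ∧ (∀ x ∈ T₁, ∀ y ∈ T₁, Commute x y) := by
    refine ⟨?_, rfl, ?_, ?_⟩
    · simp only [T₁, List.nodup_cons, List.mem_cons, List.not_mem_nil, or_false, not_or, List.nodup_nil, not_false_eq_true, and_true]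
      exact ⟨⟨fun h => absurd (hUinj 1 _ _ h) (by decide), fun h => absurd (hUinj 1 _ _ h) (by decide)⟩,
        fun h => absurd (hUinj 1 _ _ h) (by decide)⟩
    · intro x hx
      simp only [T₁, List.mem_cons, List.not_mem_nil, or_false] at hx
      rcases hx with rfl | rfl | rfl <;> exact (hU _ _).1
    · intro x hx y hy
      simp only [T₁, List.mem_cons, List.not_mem_nil, or_false] at hx hy
      rcases hx with rfl | rfl | rfl <;> rcases hy with rfl | rfl | rfl <;> exact hUc _ _ _ _
  obtain ⟨hn₁, hl₁, hs₁, hc₁⟩ := hT1prop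
  obtain ⟨l₂, -, -, hall⟩ := exists_two_factorizations hD hprim ht hn₁ hl₁ hs₁ hc₁
  have hsame : ∀ μ, μ = 1 ∨ μ = θ → ∀ x, x ∈ T μ ↔ x ∈ l₂ := by
    intro μ hμ
    have hμ0 : μ ≠ 0 := by rcases hμ with rfl | rfl <;> [exact one_ne_zero; exact hθ0]
    have e012 : (U μ 0 : G) = U 1 0 ∧ (U μ 1 : G) = U 1 1 ∧ (U μ 2 : G) = U 1 2 := by
      rcases hμ with rfl | rfl
      · exact ⟨rfl, rfl, rfl⟩
      · exact ⟨hfix 0, hfix 1, hfix 2⟩
    have hn : (T μ).Nodup := by
      simp only [T, List.nodup_cons, List.mem_cons, List.not_mem_nil, or_false, not_or, List.nodup_nil, not_false_eq_true, and_true]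
      exact ⟨⟨fun h => absurd (hUinj μ _ _ h) (by decide), fun h => absurd (hUinj μ _ _ h) (by decide)⟩,
        fun h => absurd (hUinj μ _ _ h) (by decide)⟩
    have hp : (T μ).prod = T₁.prod := by
      have h := congrArg Subtype.val (hUprod μ hμ0)
      rw [show ((List.ofFn (U μ)).prod : H).1 = ((List.ofFn (U μ)).map H.subtype).prod from map_list_prod H.subtype (List.ofFn (U μ))] at h
      simp only [List.ofFn_succ, List.ofFn_zero, List.map_cons, List.map_nil, List.prod_cons, List.prod_nil,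
        mul_one, Subgroup.coe_subtype, Subgroup.coe_one] at h
      simp only [T, T₁, List.prod_cons, List.prod_nil, mul_one]
      have h' : ((U μ 0 : G) * ((U μ 1 : G) * (U μ 2 : G))) * ((U μ 3 : G) * ((U μ 4 : G) * (U μ 5 : G))) = 1 := by
        rw [mul_assoc, mul_assoc]; exact h
      rw [e012.1, e012.2.1, e012.2.2] at h'
      have hsq := prod_sq (fun x hx => sq_eq_one hD.1 (hs₁ x hx)) hc₁
      simp only [T₁, List.prod_cons, List.prod_nil, mul_one] at hsq
      exact mul_left_cancel (h'.trans hsq.symm)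
    rcases hall (T μ) hn rfl
      (fun x hx => by
        simp only [T, List.mem_cons, List.not_mem_nil, or_false] at hx
        rcases hx with rfl | rfl | rfl <;> exact (hU _ _).1)
      (fun x hx y hy => by
        simp only [T, List.mem_cons, List.not_mem_nil, or_false] at hx hy
        rcases hx with rfl | rfl | rfl <;> rcases hy with rfl | rfl | rfl <;> exact hUc _ _ _ _) hp with h | h
    · exfalso
      have := (h (U μ 3 : G)).1 (by simp [T])
      simp only [T₁, ← e012.1, ← e012.2.1, ← e012.2.2, List.mem_cons, List.not_mem_nil, or_false] at this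
      rcases this with k | k | k <;> exact absurd (hUinj μ _ _ k) (by decide)
    · exact h
  have h3 : (U θ 3 : G) ∈ T 1 := (hsame 1 (Or.inl rfl) _).2 ((hsame θ (Or.inr rfl) _).1 (by simp [T]))
  simp only [T, List.mem_cons, List.not_mem_nil, or_false] at h3
  rcases h3 with k | k | k <;>
    exact oval_three_notMem hF hθ0 hθ1 hθ _ (by
      rw [← hUe θ 3, Subtype.ext k, hUe])

theorem isPerfect {d : G} (hd : d ∈ D) : Group.IsPerfect (Subgroup.closure (perp D d)) := by
  classical
  have hG := good_of_primitive hD hprim ht.1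
  obtain ⟨F, _, _, hF, ⟨e⟩⟩ := exists_equiv_of_type22 hD hprim ht hd
  let H : Subgroup G := Subgroup.closure (perp D d)
  obtain ⟨hT, hconj⟩ := image_tt hG hd (H := H) rfl e
  have hneH := memberSet_nonempty hD hprim ht hd
  have hdH : d ∈ H := mem_closure_perp hD hprim ht hd
  rw [Group.isPerfect_def]
  set N := commutator H with hN
  let d' : H := ⟨d, hdH⟩
  have hcentre : ∀ z : H, quotMap e z = 1 → z = 1 ∨ z = d' := fun z hz => by
    have hz' := (quotMap_eq_one e).1 hz
    rcases center_le hD hprim ht hd z.2 (fun f hf =>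
      (congrArg Subtype.val (Subgroup.mem_center_iff.1 hz' ⟨f, Subgroup.subset_closure hf⟩)).symm) with h | h
    · exact Or.inl (Subtype.ext h)
    · exact Or.inr (Subtype.ext h)
  have hsurj : Function.Surjective (quotMap e) := e.surjective.comp (QuotientGroup.mk'_surjective _)
  have himg : N.map (quotMap e) = ⊤ := by
    rw [hN, commutator_def, Subgroup.map_commutator, Subgroup.map_top_of_surjective _ hsurj, ← commutator_def]
    have hcard : Fintype.card F = 2 ^ 2 := by rw [hF]; norm_num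
    rw [commutator_def, ← Subgroup.map_top_of_surjective (QuotientGroup.mk' (Subgroup.center (Cfsg.SU 6 F 2)))
      (QuotientGroup.mk'_surjective _), ← Subgroup.map_commutator, ← commutator_def,
      CfsgLib.ClassicalForms.commutator_su_eq_top hcard (by norm_num) (by norm_num)]
  have hcover : ∀ x : H, x ∈ N ∨ x * d' ∈ N := by
    intro x
    obtain ⟨m, hm, hmx⟩ : quotMap e x ∈ N.map (quotMap e) := himg ▸ Subgroup.mem_top _
    have := hcentre (m⁻¹ * x) (by rw [map_mul, map_inv, hmx, inv_mul_cancel])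
    rcases this with h | h
    · exact Or.inl (inv_mul_eq_one.1 h ▸ hm)
    · right
      rw [show x = m * d' by rw [← h, mul_inv_cancel_left], mul_assoc,
        show d' * d' = 1 from Subtype.ext (sq_eq_one hD.1 hd), mul_one]
      exact hm
  by_contra hne
  have hd'N : d' ∉ N := by
    intro h
    refine hne (eq_top_iff.2 fun x _ => ?_)
    rcases hcover x with h1 | h1
    · exact h1
    · simpa using mul_mem h1 (inv_mem h)
  have hidx : N.index = 2 := by
    rw [Subgroup.index_eq_two_iff]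
    refine ⟨d', fun x => ?_⟩
    rcases hcover x with h1 | h1
    · exact Or.inr ⟨h1, fun h => hd'N (by simpa using mul_mem (inv_mem h1) h)⟩
    · exact Or.inl ⟨h1, fun h => hd'N (by simpa using mul_mem (inv_mem h) h1)⟩
  have hout : ∀ x ∈ memberSet D d H, x ∉ N := by
    intro x hx hxN
    refine hne (eq_top_iff.2 ?_)
    rw [← (memberSet_tt hD (d := d) (H := H) rfl).2.2, Subgroup.closure_le]
    intro y hy
    obtain ⟨h, hh, he⟩ := (local_of_type22 hD hprim ht).trans d hd x hx y hy
    have : (⟨h, hh⟩ : H) * x * (⟨h, hh⟩ : H)⁻¹ = y := Subtype.ext he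
    exact this ▸ Subgroup.Normal.conj_mem inferInstance x hxN _
  obtain ⟨u, hu, -, -, hprod⟩ := exists_six hD hprim ht hd
  refine hd'N ?_
  rw [show d' = (List.ofFn u).prod from Subtype.ext hprod.symm]
  simp only [List.ofFn_succ, List.ofFn_zero, List.prod_cons, List.prod_nil, mul_one]
  have hn : ∀ i, u i ∉ N := fun i => hout _ (hu i)
  simp [Subgroup.mul_mem_iff_of_index_two hidx, hn]

theorem isSimple : IsSimpleGroup G := by
  obtain ⟨d, hd, -⟩ := id hprim.2.1
  have : Nontrivial G := ⟨⟨d, 1, ne_one hD.1 hd⟩⟩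
  refine ⟨fun N hN => ?_⟩
  have := hN
  rcases blocks_of_equiv hD (fun x y => ∃ n ∈ N, n * x * n⁻¹ = y)
    (fun {x y} ⟨n, hn, h⟩ => ⟨n⁻¹, inv_mem hn, by rw [← h]; group⟩)
    (fun {x y z} ⟨n, hn, h⟩ ⟨m, hm, h'⟩ => ⟨m * n, mul_mem hm hn, by rw [← h', ← h]; group⟩)
    (fun g {x y} ⟨n, hn, h⟩ => ⟨g * n * g⁻¹, hN.conj_mem n hn g, by rw [← h]; group⟩) hprim hd
    ⟨1, one_mem _, by group⟩ with h | h
  · left
    rw [eq_bot_iff]
    intro n hn
    rw [← ht.1]
    refine mem_center hD.2.2 fun x hx => ?_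
    obtain ⟨g, rfl⟩ := hprim.1 d hd x hx
    have h1 := h (g⁻¹ * n * g * d * (g⁻¹ * n * g)⁻¹) (hD.2.1 _ d hd)
      ⟨g⁻¹ * n * g, by simpa using hN.conj_mem n hn g⁻¹, rfl⟩
    refine mul_inv_eq_iff_eq_mul.1 ?_
    calc n * (g * d * g⁻¹) * n⁻¹ = g * (g⁻¹ * n * g * d * (g⁻¹ * n * g)⁻¹) * g⁻¹ := by group
      _ = g * d * g⁻¹ := by rw [h1]
  · right
    have hcov : (Subgroup.zpowers (QuotientGroup.mk d : G ⧸ N)) = ⊤ := by
      rw [eq_top_iff, ← Subgroup.map_top_of_surjective _ (QuotientGroup.mk'_surjective N), ← hD.2.2,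
        MonoidHom.map_closure, Subgroup.closure_le]
      rintro _ ⟨x, hx, rfl⟩
      obtain ⟨n, hn, rfl⟩ := h x hx
      refine Subgroup.mem_zpowers_iff.2 ⟨1, ?_⟩
      rw [zpow_one, QuotientGroup.mk'_apply, QuotientGroup.mk_mul, QuotientGroup.mk_mul, QuotientGroup.mk_inv,
        (QuotientGroup.eq_one_iff n).2 hn, one_mul, inv_one, mul_one]
    have hcomm : commutator G ≤ N := by
      refine Subgroup.Normal.commutator_le_of_self_sup_commutative_eq_top (H := Subgroup.zpowers d) ?_ inferInstance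
      rw [eq_top_iff, ← hD.2.2, Subgroup.closure_le]
      intro x hx
      obtain ⟨n, hn, rfl⟩ := h x hx
      have e : n * d * n⁻¹ = n * (d * n⁻¹ * d⁻¹) * d := by group
      rw [e]
      exact mul_mem (Subgroup.mem_sup_left (mul_mem hn (hN.conj_mem _ (inv_mem hn) d)))
        (Subgroup.mem_sup_right (Subgroup.mem_zpowers d))
    have hdN : d ∈ N := by
      refine hcomm ?_
      have := isPerfect hD hprim ht hd
      have hdH := mem_closure_perp hD hprim ht hd
      have hmem : (⟨d, hdH⟩ : Subgroup.closure (perp D d)) ∈ commutator (Subgroup.closure (perp D d)) := by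
        rw [Group.IsPerfect.commutator_eq_top]; exact Subgroup.mem_top _
      have h2 := Subgroup.mem_map_of_mem (Subgroup.closure (perp D d)).subtype hmem
      rw [commutator_def, Subgroup.map_commutator] at h2
      exact Subgroup.commutator_mono le_top le_top h2
    rw [eq_top_iff, ← hD.2.2, Subgroup.closure_le]
    intro x hx
    obtain ⟨g, rfl⟩ := hprim.1 d hd x hx
    exact hN.conj_mem d hdN g

end CfsgLib.Pre22
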