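import Cfsg.Agent.Lib.Fischer.TypeTwentyTwoCentralizer
import Cfsg.Agent.Lib.Fischer.Recognition.Pre.Involutions

/-!
Groups of type M(22): the centralizer of a member is generated by the members commuting with it.

The outer diagonal automorphisms are excluded by the three hyperovals on a triangle. An element
inducing the field automorphism on the local group of `a` does so on the local group of a commuting
member `w` which it fixes, and would then permute the class oddly, against perfectness.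
-/

set_option autoImplicit false
set_option linter.unusedSectionVars false

namespace CfsgLib.Pre22

open CfsgLib.Fischer CfsgLib.Fischer.TypeTwentyTwo CfsgLib.Fischer.TypeTwentyTwo

open CfsgLib.Fischer CfsgLib.InvChar.FischerProducts CfsgLib.InvChar.FischerHexad
open CfsgLib.InvChar.UnitaryTVTwo CfsgLib.Fischer.UnitaryHyperoval CfsgLib.Fischer.UnitarySemilinear
open CfsgLib.Fischer.PermSign CfsgLib.ReflectionsSpinor

variable {G : Type*} [Group G] [Finite G] {D : Set G}
variable (hD : Cfsg.IsThreeTranspositionGroup D) (hprim : Cfsg.IsPrimitiveUnderConj D)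
  (ht : PreM22 G D)

include hD hprim ht

/-- Elements inducing inner diagonal automorphisms lie in the local group. -/
theorem mem_of_linear {a g : G} (ha : a ∈ D) (hg : Commute g a) {F : Type} [Field F] [Fintype F]
    (hF : Fintype.card F = 4)
    (e : (Subgroup.closure (perp D a) ⧸ Subgroup.center (Subgroup.closure (perp D a))) ≃* Cfsg.PSU 6 F 2)
    {φ : MulAut (Cfsg.PSU 6 F 2)}
    (hφ : ∀ x : Subgroup.closure (perp D a),
      φ (quotMap e x) = quotMap e ⟨g * x * g⁻¹, conj_mem_closure_perp hD hg x.2⟩)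
    {g₀ : Cfsg.GU 6 F 2} (he : φ = PSUAut.semiAut g₀ 1) : g ∈ Subgroup.closure (perp D a) := by
  classical
  have hG := good_of_primitive hD hprim ht.1
  let H : Subgroup G := Subgroup.closure (perp D a)
  obtain ⟨hT, hconj⟩ := image_tt hG ha (H := H) rfl e
  have hneH := (memberSet_nonempty hD hprim ht ha).image (quotMap e)
  obtain ⟨μ, D₁, s, hμ, hD₁, hs⟩ := exists_standard hF g₀ 1
  obtain ⟨h, hh⟩ := (e.surjective.comp (QuotientGroup.mk'_surjective _)) (PSUAut.cl s)
  obtain ⟨hg', hψ⟩ := aut_inv_mul hD hg e hφ (h := h) (ψ := PSUAut.semiAut D₁ 1)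
    (by rw [show quotMap e h = PSUAut.cl s from hh, he, hs])
  obtain ⟨g', hg'def⟩ : ∃ g', g' = (h : G)⁻¹ * g := ⟨_, rfl⟩
  rw [← hg'def] at hg' hψ
  suffices hmem : g' ∈ H by
    have := mul_mem h.2 hmem
    rwa [hg'def, mul_inv_cancel_left] at this
  -- conjugation of lifts
  have hmove : ∀ (x y : H) {r r' : Fin 6 → F} (hr : Cfsg.hermForm 6 F 2 r r = 0)
      (hr' : Cfsg.hermForm 6 F 2 r' r' = 0), x ∈ memberSet D a H → y ∈ memberSet D a H →
      quotMap e x = pv hF r hr → quotMap e y = pv hF r' hr' →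
      pv hF (move D₁ 1 r) (herm_move_zero D₁ 1 hr) = pv hF r' hr' → g' * x * g'⁻¹ = (y : G) := by
    intro x y r r' hr hr' hx hy ex ey k
    have hc : (⟨g' * x * g'⁻¹, conj_mem_closure_perp hD hg' x.2⟩ : H) ∈ memberSet D a H :=
      (conj_mem_perp_iff hD hg').2 hx
    refine congrArg Subtype.val (quotMap_inj hG ha (H := H) rfl e hc hy ?_)
    rw [ey, ← hψ x _ rfl, ex, semiAut_pv, k]
  rcases eq_or_ne μ 1 with rfl | hμ1
  · have hD1 : D₁ = 1 := by
      refine Subtype.ext (Units.ext ?_)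
      rw [hD₁]
      have : (![1, 1, 1, 1, 1, 1] : Fin 6 → F) = fun _ => 1 := by funext i; fin_cases i <;> rfl
      rw [this, Matrix.diagonal_one]
      rfl
    have hall : ∀ f ∈ perp D a, Commute g' f := by
      intro f hf
      refine mul_inv_eq_iff_eq_mul.1 ?_
      let f' : H := ⟨f, Subgroup.subset_closure hf⟩
      have hc : (⟨g' * f * g'⁻¹, conj_mem_closure_perp hD hg' f'.2⟩ : H) ∈ memberSet D a H :=
        (conj_mem_perp_iff hD hg').2 hf
      refine congrArg Subtype.val (quotMap_inj hG ha (H := H) rfl e hc (y := f') hf ?_)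
      rw [← hψ f' _ rfl, hD1, PSUAut.semiAut_one, MulAut.one_apply]
    rcases eq_of_commute_perp hD hprim ht ha hg' hall with k | k <;> rw [k]
    · exact one_mem _
    · exact mem_closure_perp hD hprim ht ha
  -- an outer diagonal element
  exfalso
  obtain ⟨θ, hθ, hθn, hθ0, hθ1, hall'⟩ := exists_theta hF
  obtain ⟨hμt, hμn, hμs⟩ : μ + (conj hF).σ μ = 1 ∧ μ * (conj hF).σ μ = 1 ∧ (conj hF).σ μ ≠ 1 := by
    refine ⟨?_, norm_eq_one hF hμ, fun k => hμ1 (by rw [← (conj hF).invol μ, k, map_one])⟩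
    rcases hall' μ with k | k | k | k
    · exact absurd k hμ
    · exact absurd k hμ1
    · rw [k, hθ]
    · rw [k, (conj hF).invol, add_comm, hθ]
  have hlift : ∀ (ν : F) (i : Fin 6), ∃ x ∈ memberSet D a H, quotMap e x = ovalPV hF μ ν i := fun ν i =>
    pv_mem hF (by norm_num) hT hconj hneH (herm_plane hF ..) (plane_ne_zero (by
      by_contra h
      push Not at h
      exact oval_ne_zero hF μ ν i (Prod.ext h.1 (Prod.ext h.2.1 h.2.2))))
  choose U hU hUe using hlift
  have hUc : ∀ ν ν' i j, Commute (U ν i : G) (U ν' j) := fun ν ν' i j =>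
    commute_of_quotMap hG ha (H := H) rfl e (hU ν i) (hU ν' j) (by
      rw [hUe, hUe]; exact ovalPV_commute hF μ ν μ ν' i j)
  have hUinj : ∀ ν i j, (U ν i : G) = U ν j → i = j := fun ν i j k =>
    ovalPV_injective hF hμ hμ1 hμt (by rw [← hUe ν i, ← hUe ν j, show U ν i = U ν j from Subtype.ext k])
  have hconjU : ∀ ν i, g' * (U ν i : G) * g'⁻¹ = U (μ * ν) i := by
    intro ν i
    refine hmove _ _ (herm_plane hF ..) (herm_plane hF ..) (hU ν i) (hU (μ * ν) i) (hUe ν i) (hUe (μ * ν) i) ?_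
    have hmv := move_plane hD₁ (1 : F ≃+* F) (oval hF μ ν i).1 (oval hF μ ν i).2.1 (oval hF μ ν i).2.2
    simp only [RingAut.one_apply] at hmv
    rw [pv_congr hF _ (herm_plane hF ..) hmv]
    by_cases h2 : i = 2
    · subst h2
      have e2 : plane (0 : F) 0 (μ * 1) = μ • plane (0 : F) 0 1 := by
        funext j; fin_cases j <;> simp [plane]
      have hsm : Cfsg.hermForm 6 F 2 (μ • plane (0 : F) 0 1) (μ • plane (0 : F) 0 1) = 0 := e2 ▸ herm_plane hF ..
      refine (pv_congr hF _ hsm ?_).trans ((pv_smul hF hμ (herm_plane hF ..) hsm).trans (pv_congr hF _ _ ?_))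
      · simpa [oval] using e2
      · simp [oval]
    · refine pv_congr hF _ _ ?_
      fin_cases i <;> first | exact absurd rfl h2 | simp [oval, mul_assoc]
  let S : F → List G := fun ν => List.ofFn fun i => (U ν i : G)
  have hS1 : ∀ ν, ν ≠ 0 → (S ν).prod = 1 ∨ (S ν).prod = a := by
    intro ν hν
    have h1 : quotMap e (List.ofFn (U ν)).prod = 1 := by
      rw [map_list_prod, List.map_ofFn, show (quotMap e ∘ U ν) = ovalPV hF μ ν from funext (hUe ν)]
      exact ovalPV_prod hF hμt hμn hν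
    have hz := (quotMap_eq_one e).1 h1
    have hp : ((List.ofFn (U ν)).prod : G) = (S ν).prod := by
      rw [show ((List.ofFn (U ν)).prod : H).1 = ((List.ofFn (U ν)).map H.subtype).prod from
        map_list_prod H.subtype (List.ofFn (U ν)), List.map_ofFn]
      rfl
    rw [← hp]
    exact center_le hD hprim ht ha (List.ofFn (U ν)).prod.2 (fun f hf =>
      (congrArg Subtype.val (Subgroup.mem_center_iff.1 hz ⟨f, Subgroup.subset_closure hf⟩)).symm)
  have hSstep : ∀ ν, ν ≠ 0 → (S (μ * ν)).prod = (S ν).prod := by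
    intro ν hν
    have h1 : (S (μ * ν)).prod = g' * (S ν).prod * g'⁻¹ := by
      rw [← MulAut.conj_apply, map_list_prod, List.map_ofFn]
      congr 1
      exact congrArg List.ofFn (funext fun i => (hconjU ν i).symm)
    rw [h1]
    rcases hS1 ν hν with k | k <;> rw [k]
    · group
    · rw [hg'.eq, mul_inv_cancel_right]
  have hSμ : (S μ).prod = (S 1).prod := by simpa using hSstep 1 one_ne_zero
  have hSμμ : (S ((conj hF).σ μ)).prod = (S 1).prod := by
    rw [UnitarySemilinear.conj_eq_sq hF, hSstep μ hμ, hSμ]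
  -- three triples with one product
  let T : F → List G := fun ν => [(U ν 3 : G), (U ν 4 : G), (U ν 5 : G)]
  have hfix : ∀ ν, (U ν 0 : G) = U 1 0 ∧ (U ν 1 : G) = U 1 1 ∧ (U ν 2 : G) = U 1 2 := by
    intro ν
    obtain ⟨k0, k1, k2⟩ := ovalPV_fixed hF μ ν 1
    exact ⟨congrArg Subtype.val (quotMap_inj hG ha (H := H) rfl e (hU _ _) (hU _ _) (by rw [hUe, hUe, k0])),
      congrArg Subtype.val (quotMap_inj hG ha (H := H) rfl e (hU _ _) (hU _ _) (by rw [hUe, hUe, k1])),
      congrArg Subtype.val (quotMap_inj hG ha (H := H) rfl e (hU _ _) (hU _ _) (by rw [hUe, hUe, k2]))⟩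
  have hTn : ∀ ν, (T ν).Nodup := by
    intro ν
    simp only [T, List.nodup_cons, List.mem_cons, List.not_mem_nil, or_false, not_or, List.nodup_nil,
      not_false_eq_true, and_true]
    exact ⟨⟨fun h => absurd (hUinj ν _ _ h) (by decide), fun h => absurd (hUinj ν _ _ h) (by decide)⟩,
      fun h => absurd (hUinj ν _ _ h) (by decide)⟩
  have hTD : ∀ ν, ∀ x ∈ T ν, x ∈ D := fun ν x hx => by
    simp only [T, List.mem_cons, List.not_mem_nil, or_false] at hx
    rcases hx with rfl | rfl | rfl <;> exact (hU _ _).1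
  have hTc : ∀ ν, ∀ x ∈ T ν, ∀ y ∈ T ν, Commute x y := fun ν x hx y hy => by
    simp only [T, List.mem_cons, List.not_mem_nil, or_false] at hx hy
    rcases hx with rfl | rfl | rfl <;> rcases hy with rfl | rfl | rfl <;> exact hUc _ _ _ _
  have hSeq : ∀ ν, (S ν).prod = (U 1 0 : G) * ((U 1 1 : G) * (U 1 2 : G)) * (T ν).prod := by
    intro ν
    obtain ⟨k0, k1, k2⟩ := hfix ν
    simp only [S, T, List.ofFn_succ, List.ofFn_zero, List.prod_cons, List.prod_nil, mul_one]
    rw [← k0, ← k1, ← k2]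
    simp only [mul_assoc]
    rfl
  have hTp : ∀ ν, (S ν).prod = (S 1).prod → (T ν).prod = (T 1).prod := fun ν k => by
    rw [hSeq, hSeq] at k
    exact mul_left_cancel k
  obtain ⟨l₂, -, -, hall⟩ := exists_two_factorizations hD hprim ht (hTn 1) rfl (hTD 1) (hTc 1)
  have hsep : ∀ ν ν', (U ν 3 : G) ∈ T ν' → ν = ν' := by
    intro ν ν' hmem
    have hj : ∃ j : Fin 6, (j = 3 ∨ j = 4 ∨ j = 5) ∧ ovalPV hF μ ν 3 = ovalPV hF μ ν' j := by
      simp only [T, List.mem_cons, List.not_mem_nil, or_false] at hmem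
      rcases hmem with k | k | k
      · exact ⟨3, Or.inl rfl, by rw [← hUe, ← hUe, Subtype.ext k]⟩
      · exact ⟨4, Or.inr (Or.inl rfl), by rw [← hUe, ← hUe, Subtype.ext k]⟩
      · exact ⟨5, Or.inr (Or.inr rfl), by rw [← hUe, ← hUe, Subtype.ext k]⟩
    obtain ⟨j, hj, hje⟩ := hj
    obtain ⟨k, e1, e2, e3⟩ := ovalPV_eq hF (oval_ne_zero hF μ ν 3) hje
    rcases hj with rfl | rfl | rfl <;> simp [oval] at e1 e2 e3 <;> subst e1 <;> simp at e2 e3
    · exact e3
    · exact absurd e2.symm hμ1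
    · exact absurd e2.symm hμs
  have key : ∀ ν, ν ≠ 1 → (S ν).prod = (S 1).prod → ∀ x, x ∈ T ν ↔ x ∈ l₂ := by
    intro ν hν hp
    rcases hall (T ν) (hTn ν) rfl (hTD ν) (hTc ν) (hTp ν hp) with k | k
    · exact absurd (hsep ν 1 ((k _).1 (by simp [T]))) hν
    · exact k
  have := hsep μ ((conj hF).σ μ)
    ((key _ hμs hSμμ _).2 ((key μ hμ1 hSμ _).1 (by simp [T])))
  rw [← this, add_self hF] at hμt
  exact zero_ne_one hμt

/-- An element outside the local group induces, up to an element of it, a standard field automorphism. -/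
theorem exists_field {a g : G} (ha : a ∈ D) (hg : Commute g a) (hgH : g ∉ Subgroup.closure (perp D a))
    {F : Type} [Field F] [Fintype F] (hF : Fintype.card F = 4)
    (e : (Subgroup.closure (perp D a) ⧸ Subgroup.center (Subgroup.closure (perp D a))) ≃* Cfsg.PSU 6 F 2) :
    ∃ g' : G, ∃ hg' : Commute g' a, g' ∉ Subgroup.closure (perp D a) ∧
      ∃ (μ : F) (D₁ : Cfsg.GU 6 F 2), μ ≠ 0 ∧
        (Units.val D₁.1 : Matrix _ _ F) = Matrix.diagonal ![1, 1, 1, 1, μ, μ] ∧
        ∀ x : Subgroup.closure (perp D a), PSUAut.semiAut D₁ (frob hF) (quotMap e x) =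
          quotMap e ⟨g' * x * g'⁻¹, conj_mem_closure_perp hD hg' x.2⟩ := by
  obtain ⟨φ, hφ⟩ := exists_aut hD hg e
  obtain ⟨g₀, σ, he⟩ := CfsgLib.ClassicalAut.Unitary.exists_semiAut_psu (n := 6) (q := 2) (by rw [hF]; norm_num)
    (by norm_num) (by norm_num) φ
  rcases ringEquiv_cases hF σ with rfl | rfl
  · exact absurd (mem_of_linear hD hprim ht ha hg hF e hφ he) hgH
  obtain ⟨μ, D₁, s, hμ, hD₁, hs⟩ := exists_standard hF g₀ (frob hF)
  obtain ⟨h, hh⟩ := (e.surjective.comp (QuotientGroup.mk'_surjective _)) (PSUAut.cl s)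
  obtain ⟨hg', hψ⟩ := aut_inv_mul hD hg e hφ (h := h) (ψ := PSUAut.semiAut D₁ (frob hF))
    (by rw [show quotMap e h = PSUAut.cl s from hh, he, hs])
  refine ⟨_, hg', fun k => hgH ?_, μ, D₁, hμ, hD₁, fun x => hψ x _ rfl⟩
  simpa using mul_mem h.2 k

/-- The local group has index at most two in the centralizer. -/
theorem mul_mem_of_notMem {a g k : G} (ha : a ∈ D) (hg : Commute g a) (hk : Commute k a)
    (hgH : g ∉ Subgroup.closure (perp D a)) (hkH : k ∉ Subgroup.closure (perp D a)) :
    g⁻¹ * k ∈ Subgroup.closure (perp D a) := by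
  obtain ⟨F, _, _, hF, ⟨e⟩⟩ := exists_equiv_of_type22 hD hprim ht ha
  obtain ⟨φ, hφ⟩ := exists_aut hD hg e
  obtain ⟨χ, hχ⟩ := exists_aut hD hk e
  obtain ⟨ψ, hψ⟩ := exists_aut hD (hg.inv_left.mul_left hk) e
  obtain ⟨g₀, σ, he⟩ := CfsgLib.ClassicalAut.Unitary.exists_semiAut_psu (n := 6) (q := 2) (by rw [hF]; norm_num)
    (by norm_num) (by norm_num) φ
  obtain ⟨k₀, τ, he'⟩ := CfsgLib.ClassicalAut.Unitary.exists_semiAut_psu (n := 6) (q := 2) (by rw [hF]; norm_num)
    (by norm_num) (by norm_num) χ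
  rcases ringEquiv_cases hF σ with rfl | rfl
  · exact absurd (mem_of_linear hD hprim ht ha hg hF e hφ he) hgH
  rcases ringEquiv_cases hF τ with rfl | rfl
  · exact absurd (mem_of_linear hD hprim ht ha hk hF e hχ he') hkH
  have h1 : φ * ψ = χ := aut_eq e fun x => by
    rw [MulAut.mul_apply, hψ, hφ, hχ]
    exact congrArg (quotMap e) (Subtype.ext (show g * (g⁻¹ * k * x * (g⁻¹ * k)⁻¹) * g⁻¹ = k * x * k⁻¹ by group))
  refine mem_of_linear hD hprim ht ha (hg.inv_left.mul_left hk) hF e hψ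
    (g₀ := PSUAut.gmapU (frob hF)⁻¹ g₀⁻¹ * PSUAut.gmapU (frob hF)⁻¹ k₀) ?_
  rw [eq_inv_mul_of_mul_eq h1, he, he', PSUAut.semiAut_inv, PSUAut.semiAut_mul, inv_mul_cancel]

/-- An element inducing a field automorphism does so at the member it fixes in a suitable way. -/
theorem notMem_of_field {a g : G} (ha : a ∈ D) (hg : Commute g a) {F : Type} [Field F] [Fintype F]
    (hF : Fintype.card F = 4)
    (e : (Subgroup.closure (perp D a) ⧸ Subgroup.center (Subgroup.closure (perp D a))) ≃* Cfsg.PSU 6 F 2)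
    {μ : F} {D₁ : Cfsg.GU 6 F 2}
    (hD₁ : (Units.val D₁.1 : Matrix _ _ F) = Matrix.diagonal ![1, 1, 1, 1, μ, μ])
    (hψ : ∀ x : Subgroup.closure (perp D a), PSUAut.semiAut D₁ (frob hF) (quotMap e x) =
      quotMap e ⟨g * x * g⁻¹, conj_mem_closure_perp hD hg x.2⟩) :
    ∃ w : Subgroup.closure (perp D a), (w : G) ∈ perp D a ∧
      quotMap e w = pv hF (plane 1 0 0) (herm_plane hF ..) ∧
      Commute g w ∧ g ∉ Subgroup.closure (perp D (w : G)) := by
  have hG := good_of_primitive hD hprim ht.1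
  let H : Subgroup G := Subgroup.closure (perp D a)
  obtain ⟨hT, hconj⟩ := image_tt hG ha (H := H) rfl e
  have hneH := (memberSet_nonempty hD hprim ht ha).image (quotMap e)
  obtain ⟨θ, hθ, hθn, hθ0, hθ1, -⟩ := exists_theta hF
  have hp : ∀ p q : F, (p ≠ 0 ∨ q ≠ 0) → ∃ x ∈ memberSet D a H,
      quotMap e x = pv hF (plane p q 0) (herm_plane hF ..) := fun p q h =>
    pv_mem hF (by norm_num) hT hconj hneH (herm_plane hF ..)
      (plane_ne_zero (h.elim Or.inl fun k => Or.inr (Or.inl k)))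
  obtain ⟨W, hW, hWe⟩ := hp 1 0 (Or.inl one_ne_zero)
  obtain ⟨X, hX, hXe⟩ := hp 0 1 (Or.inr one_ne_zero)
  obtain ⟨Z, hZ, hZe⟩ := hp 1 1 (Or.inl one_ne_zero)
  obtain ⟨Y, hY, hYe⟩ := hp θ 1 (Or.inl hθ0)
  have hcomm : ∀ x y : H, x ∈ memberSet D a H → y ∈ memberSet D a H → ∀ {r r' : Fin 6 → F}
      (hr : Cfsg.hermForm 6 F 2 r r = 0) (hr' : Cfsg.hermForm 6 F 2 r' r' = 0),
      quotMap e x = pv hF r hr → quotMap e y = pv hF r' hr' → Cfsg.hermForm 6 F 2 r r' = 0 →
      Commute (x : G) y := by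
    intro x y hx hy r r' hr hr' ex ey k
    refine commute_of_quotMap hG ha (H := H) rfl e hx hy ?_
    rw [ex, ey]
    exact (tv_commute hF hr hr' k).map (QuotientGroup.mk' _)
  have hmove : ∀ (x y : H) {r r' : Fin 6 → F} (hr : Cfsg.hermForm 6 F 2 r r = 0)
      (hr' : Cfsg.hermForm 6 F 2 r' r' = 0), x ∈ memberSet D a H → y ∈ memberSet D a H →
      quotMap e x = pv hF r hr → quotMap e y = pv hF r' hr' →
      move D₁ (frob hF) r = r' → Commute g (x : G) → (x : G) = y := by
    intro x y r r' hr hr' hx hy ex ey k hc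
    refine congrArg Subtype.val (quotMap_inj hG ha (H := H) rfl e hx hy ?_)
    rw [ey, show x = ⟨g * x * g⁻¹, conj_mem_closure_perp hD hg x.2⟩ from
      Subtype.ext (show (x : G) = g * x * g⁻¹ by rw [hc.eq, mul_inv_cancel_right]), ← hψ x, ex, semiAut_pv]
    exact pv_congr hF _ _ k
  have hfix : ∀ (x : H) {p q : F}, x ∈ memberSet D a H → quotMap e x = pv hF (plane p q 0) (herm_plane hF ..) →
      frob hF p = p → frob hF q = q → Commute g (x : G) := by
    intro x p q hx ex h1 h2
    have hc : (⟨g * x * g⁻¹, conj_mem_closure_perp hD hg x.2⟩ : H) ∈ memberSet D a H :=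
      (conj_mem_perp_iff hD hg).2 hx
    refine mul_inv_eq_iff_eq_mul.1 (congrArg Subtype.val (quotMap_inj hG ha (H := H) rfl e hc hx ?_))
    rw [← hψ x, ex, semiAut_pv]
    exact pv_congr hF _ _ (by rw [move_plane hD₁, h1, h2, map_zero, mul_zero])
  have hgW : Commute g (W : G) := hfix W hW hWe (map_one _) (map_zero _)
  have hgX : Commute g (X : G) := hfix X hX hXe (map_zero _) (map_one _)
  have hgZ : Commute g (Z : G) := hfix Z hZ hZe (map_one _) (map_one _)
  have hgY : ¬ Commute g (Y : G) := by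
    intro k
    obtain ⟨Y', hY', hY'e⟩ := hp (frob hF θ) 1 (Or.inr one_ne_zero)
    have h1 := hmove Y Y' (herm_plane hF ..) (herm_plane hF ..) hY hY' hYe hY'e
      (by rw [move_plane hD₁, map_one, map_zero, mul_zero]) k
    rw [show Y = Y' from Subtype.ext h1, hY'e] at hYe
    obtain ⟨c, hc⟩ := pv_eq_span hF (by norm_num) (herm_plane hF ..) (herm_plane hF ..)
      (plane_ne_zero (Or.inr (Or.inl one_ne_zero))) hYe
    have h2 : (1 : F) = c * 1 := by simpa [plane] using congrFun hc 2
    have h0 : frob hF θ = c * θ := by simpa [plane] using congrFun hc 0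
    rw [show c = 1 by linear_combination -h2, one_mul, frob_apply] at h0
    rw [h0, add_self hF] at hθ
    exact zero_ne_one hθ
  refine ⟨W, hW, hWe, hgW, fun hgw => hgY ?_⟩
  -- the point of view of `W`
  obtain ⟨F', _, _, hF', ⟨e'⟩⟩ := exists_equiv_of_type22 hD hprim ht hW.1
  let K : Subgroup G := Subgroup.closure (perp D (W : G))
  obtain ⟨hT', hconj'⟩ := image_tt hG hW.1 (H := K) rfl e'
  have hsep : ∀ (x : H) {p : F}, x ∈ memberSet D a H → quotMap e x = pv hF (plane p 1 0) (herm_plane hF ..) →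
      (x : G) ≠ W := by
    intro x p hx ex k
    rw [show x = W from Subtype.ext k, hWe] at ex
    obtain ⟨c, hc⟩ := pv_eq_span hF (by norm_num) (herm_plane hF ..) (herm_plane hF ..)
      (plane_ne_zero (Or.inl one_ne_zero)) ex
    have h2 : (0 : F) = c := by simpa [plane] using congrFun hc 2
    have h0 : (1 : F) = c * p := by simpa [plane] using congrFun hc 0
    rw [← h2, zero_mul] at h0
    exact one_ne_zero h0
  have hperpW : ∀ (x : H) {p : F}, x ∈ memberSet D a H → quotMap e x = pv hF (plane p 1 0) (herm_plane hF ..) →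
      (x : G) ∈ perp D (W : G) := fun x p hx ex =>
    ⟨hx.1, hsep x hx ex, hcomm W x hW hx (herm_plane hF ..) (herm_plane hF ..) hWe ex (herm_plane hF ..)⟩
  have haW : a ∈ perp D (W : G) := ⟨ha, fun k => hW.2.1 k.symm, hW.2.2.symm⟩
  have hXW : (X : G) ∈ perp D (W : G) := hperpW X hX hXe
  have hZW : (Z : G) ∈ perp D (W : G) := hperpW Z hZ hZe
  have hYW : (Y : G) ∈ perp D (W : G) := hperpW Y hY hYe
  obtain ⟨va, hva, hva0, hae⟩ := exists_pv_of_mem hF' (by norm_num) hT' hconj'
    ⟨⟨a, Subgroup.subset_closure haW⟩, haW, rfl⟩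
  obtain ⟨vx, hvx, hvx0, hxe⟩ := exists_pv_of_mem hF' (by norm_num) hT' hconj'
    ⟨⟨X, Subgroup.subset_closure hXW⟩, hXW, rfl⟩
  have hdiff : ∀ (x : H) (f : G) (hxW : (x : G) ∈ perp D (W : G)) (hfW : f ∈ perp D (W : G)),
      quotMap e' ⟨x, Subgroup.subset_closure hxW⟩ = quotMap e' ⟨f, Subgroup.subset_closure hfW⟩ → (x : G) = f :=
    fun x f hxW hfW k => congrArg Subtype.val (quotMap_inj hG hW.1 (H := K) rfl e'
      (x := ⟨x, Subgroup.subset_closure hxW⟩) (y := ⟨f, Subgroup.subset_closure hfW⟩) hxW hfW k)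
  have hvax : Cfsg.hermForm 6 F' 2 va vx = 0 := by
    refine herm_eq_zero_of_commute hF' (by norm_num) hva hvx ?_
    rw [← hae, ← hxe]
    exact (show Commute (⟨a, Subgroup.subset_closure haW⟩ : K) ⟨X, Subgroup.subset_closure hXW⟩ from
      Subtype.ext hX.2.2.eq).map _
  have hind : ∀ c d : F', c • va + d • vx = 0 → c = 0 ∧ d = 0 := by
    intro c d h
    by_cases hd : d = 0
    · rw [hd, zero_smul, add_zero, smul_eq_zero] at h
      exact ⟨h.resolve_right hva0, hd⟩
    · exfalso
      have h2 : vx = (d⁻¹ * -c) • va := by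
        rw [mul_smul, neg_smul, ← eq_neg_of_add_eq_zero_right h, inv_smul_smul₀ hd]
      have hne : d⁻¹ * -c ≠ 0 := fun k => hvx0 (by rw [h2, k, zero_smul])
      refine hX.2.1 (hdiff X a hXW haW ?_)
      rw [hxe, hae]
      exact (pv_congr hF' hvx (by rw [← h2]; exact hvx) h2).trans (pv_smul hF' hne hva _)
  -- the points of the line
  have hline : ∀ (x : H) {p : F}, x ∈ memberSet D a H → quotMap e x = pv hF (plane p 1 0) (herm_plane hF ..) →
      ∀ hxW : (x : G) ∈ perp D (W : G), ∃ (u : Fin 6 → F') (hu : Cfsg.hermForm 6 F' 2 u u = 0), u ≠ 0 ∧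
        quotMap e' ⟨x, Subgroup.subset_closure hxW⟩ = pv hF' u hu ∧ ∃ c d : F', u = c • va + d • vx := by
    intro x p hx ex hxW
    obtain ⟨u, hu, hu0, hue⟩ := exists_pv_of_mem hF' (by norm_num) hT' hconj'
      ⟨⟨x, Subgroup.subset_closure hxW⟩, hxW, rfl⟩
    refine ⟨u, hu, hu0, hue, mem_span_of_perp hF' (by norm_num) hva hvx hvax hu fun k hk hka hkx => ?_⟩
    by_cases hk0 : k = 0
    · subst hk0; exact (conj hF').zero_left _
    obtain ⟨f, hf, hfk⟩ := pv_mem hF' (by norm_num) hT' hconj'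
      ⟨_, ⟨a, Subgroup.subset_closure haW⟩, haW, rfl⟩ hk hk0
    refine herm_eq_zero_of_commute hF' (by norm_num) hk hu ?_
    rw [← hfk, ← hue]
    refine (show Commute f ⟨x, Subgroup.subset_closure hxW⟩ from Subtype.ext (?_ : Commute (f : G) x).eq).map _
    have hfa : Commute (f : G) a := commute_of_quotMap hG hW.1 (H := K) rfl e' hf
      (y := ⟨a, Subgroup.subset_closure haW⟩) haW (by
        rw [hfk, hae]; exact (tv_commute hF' hk hva hka).map (QuotientGroup.mk' _))
    by_cases hne : (f : G) = a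
    · rw [hne]; exact hx.2.2
    have hfX : Commute (f : G) X := commute_of_quotMap hG hW.1 (H := K) rfl e' hf
      (y := ⟨X, Subgroup.subset_closure hXW⟩) hXW (by
        rw [hfk, hxe]; exact (tv_commute hF' hk hvx hkx).map (QuotientGroup.mk' _))
    let f' : H := ⟨f, Subgroup.subset_closure ⟨hf.1, hne, hfa.symm⟩⟩
    have hf' : f' ∈ memberSet D a H := ⟨hf.1, hne, hfa.symm⟩
    obtain ⟨r, hr, -, hre⟩ := exists_pv_of_mem hF (by norm_num) hT hconj ⟨f', hf', rfl⟩
    have hr1 : Cfsg.hermForm 6 F 2 r (plane 1 0 0) = 0 := herm_eq_zero_of_commute hF (by norm_num) hr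
      (herm_plane hF ..) (by
        rw [← hre, ← hWe]
        exact (show Commute f' W from Subtype.ext hf.2.2.symm.eq).map _)
    have hr2 : Cfsg.hermForm 6 F 2 r (plane 0 1 0) = 0 := herm_eq_zero_of_commute hF (by norm_num) hr
      (herm_plane hF ..) (by
        rw [← hre, ← hXe]
        exact (show Commute f' X from Subtype.ext hfX.eq).map _)
    refine hcomm f' x hf' hx hr (herm_plane hF ..) hre ex ?_
    have he' : plane p (1 : F) 0 = p • plane 1 0 0 + plane 0 1 0 := by
      funext i; fin_cases i <;> simp [plane]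
    rw [he', (conj hF).add_right, (conj hF).smul_right, hr1, hr2, mul_zero, add_zero]
  obtain ⟨vz, hvz, hvz0, hze, cz, dz, hzspan⟩ := hline Z hZ hZe hZW
  obtain ⟨vy, hvy, hvy0, hye, cy, dy, hyspan⟩ := hline Y hY hYe hYW
  -- a lift of `g`
  obtain ⟨s, hs⟩ := QuotientGroup.mk'_surjective _ (quotMap e' ⟨g, hgw⟩)
  have hact : ∀ (f : G) (hfW : f ∈ perp D (W : G)) {u : Fin 6 → F'} (hu : Cfsg.hermForm 6 F' 2 u u = 0),
      quotMap e' ⟨f, Subgroup.subset_closure hfW⟩ = pv hF' u hu →
      quotMap e' (⟨g, hgw⟩ * ⟨f, Subgroup.subset_closure hfW⟩ * (⟨g, hgw⟩)⁻¹) =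
        pv hF' (act s u) (by rw [act_herm, hu]) := by
    intro f hfW u hu ef
    rw [map_mul, map_mul, map_inv, ef, ← hs, pv, pv, QuotientGroup.mk'_apply, ← QuotientGroup.mk_mul,
      ← QuotientGroup.mk_inv, ← QuotientGroup.mk_mul, conj_tv hF' s hu]
  have heig : ∀ (f : G) (hfW : f ∈ perp D (W : G)) {u : Fin 6 → F'} (hu : Cfsg.hermForm 6 F' 2 u u = 0), u ≠ 0 →
      quotMap e' ⟨f, Subgroup.subset_closure hfW⟩ = pv hF' u hu → Commute g f → ∃ c : F', act s u = c • u := by
    intro f hfW u hu hu0 ef hc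
    have h1 := hact f hfW hu ef
    rw [show (⟨g, hgw⟩ * ⟨f, Subgroup.subset_closure hfW⟩ * (⟨g, hgw⟩)⁻¹ : K) =
      ⟨f, Subgroup.subset_closure hfW⟩ from Subtype.ext (show g * f * g⁻¹ = f by rw [hc.eq, mul_inv_cancel_right]),
      ef] at h1
    obtain ⟨k, hk⟩ := pv_eq_span hF' (by norm_num) hu _ hu0 h1
    have hk0 : k ≠ 0 := fun e => hu0 (by rw [hk, e, zero_smul])
    exact ⟨k⁻¹, ((inv_smul_eq_iff₀ hk0).2 hk).symm⟩
  obtain ⟨α, hα⟩ := heig a haW hva hva0 hae hg
  obtain ⟨β, hβ⟩ := heig X hXW hvx hvx0 hxe hgX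
  obtain ⟨γ, hγ⟩ := heig Z hZW hvz hvz0 hze hgZ
  have hcz : cz ≠ 0 := by
    rintro rfl
    rw [zero_smul, zero_add] at hzspan
    have hdz : dz ≠ 0 := fun k => hvz0 (by rw [hzspan, k, zero_smul])
    have hZX : (Z : G) = X := hdiff Z X hZW hXW (by
      rw [hze, hxe]
      exact (pv_congr hF' hvz (by rw [← hzspan]; exact hvz) hzspan).trans (pv_smul hF' hdz hvx _))
    rw [show Z = X from Subtype.ext hZX, hXe] at hZe
    obtain ⟨c, hc⟩ := pv_eq_span hF (by norm_num) (herm_plane hF ..) (herm_plane hF ..)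
      (plane_ne_zero (Or.inr (Or.inl one_ne_zero))) hZe
    have h0 : c = 0 := by simpa [plane] using (congrFun hc 0).symm
    have h2 : (1 : F) = c := by simpa [plane] using congrFun hc 2
    exact one_ne_zero (h2.trans h0)
  have hdz : dz ≠ 0 := by
    rintro rfl
    rw [zero_smul, add_zero] at hzspan
    exact hZ.2.1 (hdiff Z a hZW haW (by
      rw [hze, hae]
      exact (pv_congr hF' hvz (by rw [← hzspan]; exact hvz) hzspan).trans (pv_smul hF' hcz hva _)))
  have hrel : (cz * α - γ * cz) • va + (dz * β - γ * dz) • vx = 0 := by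
    have h1 := hγ
    rw [hzspan, act_add, act_smul, act_smul, hα, hβ, smul_add, smul_smul, smul_smul, smul_smul, smul_smul] at h1
    rw [sub_smul, sub_smul, sub_add_sub_comm, h1, sub_self]
  obtain ⟨r1, r2⟩ := hind _ _ hrel
  have hαγ : α = γ := mul_left_cancel₀ hcz (by linear_combination r1)
  have hβγ : β = γ := mul_left_cancel₀ hdz (by linear_combination r2)
  have hY1 : act s vy = γ • vy := by
    rw [hyspan, act_add, act_smul, act_smul, hα, hβ, hαγ, hβγ, smul_comm cy, smul_comm dy, smul_add]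
  have hγ0 : γ ≠ 0 := by
    intro k
    rw [← hαγ] at k
    have hinv := congrArg (act s⁻¹) hα
    rw [← act_mul, inv_mul_cancel, act_one, act_smul, k, zero_smul] at hinv
    exact hva0 hinv
  refine mul_inv_eq_iff_eq_mul.1 ?_
  refine congrArg Subtype.val (quotMap_inj hG hW.1 (H := K) rfl e'
    (x := ⟨g, hgw⟩ * ⟨Y, Subgroup.subset_closure hYW⟩ * (⟨g, hgw⟩)⁻¹)
    (y := ⟨Y, Subgroup.subset_closure hYW⟩) ((conj_mem_perp_iff hD hgW).2 hYW) hYW ?_)
  rw [hact Y hYW hvy hye, hye]
  exact (pv_congr hF' _ (by rw [← hY1, act_herm, hvy]) hY1).trans (pv_smul hF' hγ0 hvy _)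

theorem centralizer_mem {a g : G} (ha : a ∈ D) (hg : Commute g a) : g ∈ Subgroup.closure (perp D a) := by
  classical
  by_contra hgH
  let _ : Fintype G := Fintype.ofFinite G
  have hG := good_of_primitive hD hprim ht.1
  obtain ⟨F, _, _, hF, ⟨e⟩⟩ := exists_equiv_of_type22 hD hprim ht ha
  let H : Subgroup G := Subgroup.closure (perp D a)
  obtain ⟨g', hg', hg'H, μ, D₁, hμ, hD₁, hψ⟩ := exists_field hD hprim ht ha hg hgH hF e
  obtain ⟨W, hW, hWe, hgW, hgWH⟩ := notMem_of_field hD hprim ht ha hg' hF e hD₁ hψ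
  obtain ⟨hT, hconj⟩ := image_tt hG ha (H := H) rfl e
  have hneH := (memberSet_nonempty hD hprim ht ha).image (quotMap e)
  set w : G := (W : G) with hw
  have hwD : w ∈ D := hW.1
  -- the sign on `perp a`
  have hinv : ∀ {b k : G}, Commute k b → ∀ x, k * x * k⁻¹ ∈ perp D b ↔ x ∈ perp D b :=
    fun {b k} hk x => conj_mem_perp_iff hD hk
  have hone : ∀ k ∈ H, Equiv.Perm.sign (part (conjP k) (perp D a)) = 1 := by
    intro k hk
    have := isPerfect hD hprim ht ha
    have hmem : (⟨k, hk⟩ : H) ∈ commutator H := by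
      rw [Group.IsPerfect.commutator_eq_top]; exact Subgroup.mem_top _
    exact Abelianization.commutator_subset_ker
      (sgnHom H (perp D a) fun g hg => hinv (commute_d (H := H) rfl hg).symm) hmem
  have hsame : ∀ k, Commute k a → k ∉ H →
      Equiv.Perm.sign (part (conjP k) (perp D a)) = Equiv.Perm.sign (part (conjP g') (perp D a)) := by
    intro k hk hkH
    have h1 := hone _ (mul_mem_of_notMem hD hprim ht ha hg' hk hg'H hkH)
    rw [conjP_mul, part_mul (hinv hg'.inv_left) (hinv hk), map_mul] at h1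
    have h2 : Equiv.Perm.sign (part (conjP g') (perp D a)) * Equiv.Perm.sign (part (conjP g'⁻¹) (perp D a)) = 1 := by
      rw [← map_mul, ← part_mul (hinv hg') (hinv hg'.inv_left), ← conjP_mul, mul_inv_cancel,
        part_eq_one fun x _ => by simp [conjP_apply], map_one]
    exact mul_left_cancel (h1.trans ((mul_comm _ _).trans h2).symm)
  -- the sign on `perp w`
  obtain ⟨c, hc⟩ := hprim.1 a ha w hwD
  have hpw : Equiv.Perm.sign (part (conjP g') (perp D w)) = Equiv.Perm.sign (part (conjP g') (perp D a)) := by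
    obtain ⟨k, hkdef⟩ : ∃ k, k = c⁻¹ * g' * c := ⟨_, rfl⟩
    have hka : Commute k a := by
      have h := (conj_commute_iff c⁻¹ g' w).2 hgW
      rwa [show c⁻¹ * w * c⁻¹⁻¹ = a by rw [← hc]; group, inv_inv, ← hkdef] at h
    have hkH : k ∉ H := by
      intro hk
      have hmap : H.map (MulAut.conj c).toMonoidHom ≤ Subgroup.closure (perp D w) := by
        rw [MonoidHom.map_closure]
        refine Subgroup.closure_mono ?_
        rintro _ ⟨y, hy, rfl⟩
        rw [← hc]
        exact CfsgLib.InvChar.FischerHexad.perp_conj hD c hy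
      have h2 := hmap ⟨k, hk, rfl⟩
      rw [show (MulAut.conj c).toMonoidHom k = g' by simp [hkdef, MulAut.conj_apply, mul_assoc]] at h2
      exact hgWH h2
    have hperp : ∀ x, c * x * c⁻¹ ∈ perp D w ↔ x ∈ perp D a := by
      intro x
      rw [← hc]
      constructor
      · intro h
        have := CfsgLib.InvChar.FischerHexad.perp_conj hD c⁻¹ h
        simpa [MulAut.conj_apply, mul_assoc] using this
      · exact fun h => CfsgLib.InvChar.FischerHexad.perp_conj hD c h
    have heq : part (conjP g') (perp D w) = conjP c * part (conjP k) (perp D a) * (conjP c)⁻¹ := by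
      refine Equiv.ext fun x => ?_
      obtain ⟨y, rfl⟩ := (conjP c).surjective x
      rw [Equiv.Perm.mul_apply, Equiv.Perm.mul_apply, Equiv.Perm.inv_def, Equiv.symm_apply_apply]
      by_cases hy : y ∈ perp D a
      · have hcy : conjP c y ∈ perp D w := (hperp y).2 hy
        rw [part_apply_of_mem (f := conjP k) (fun x => hinv hka x) hy,
          part_apply_of_mem (f := conjP g') (fun x => hinv hgW x) hcy]
        simp [conjP_apply, hkdef, mul_assoc]
      · have hcy : conjP c y ∉ perp D w := fun h => hy ((hperp y).1 h)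
        rw [part_apply_of_notMem hy, part_apply_of_notMem hcy]
    rw [heq, map_mul, map_mul, map_inv, mul_comm (Equiv.Perm.sign (conjP c)), mul_inv_cancel_right]
    exact hsame k hka hkH
  -- the sign on the whole class
  have hDinv : ∀ k : G, ∀ x, conjP k x ∈ D ↔ x ∈ D := fun k x => conj_iff hD k
  have hsD : Equiv.Perm.sign (part (conjP g') D) = 1 := by
    let f : G →* ℤˣ :=
      { toFun := fun k => Equiv.Perm.sign (part (conjP k) D)
        map_one' := by rw [part_eq_one fun x _ => by simp [conjP_apply], map_one]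
        map_mul' := fun k l => by rw [conjP_mul, part_mul (hDinv k) (hDinv l), map_mul] }
    have hmem : g' ∈ commutator G := commutator_eq_top hD hprim ht ▸ Subgroup.mem_top g'
    exact Abelianization.commutator_subset_ker f hmem
  -- the decomposition
  have haw : a ∈ perp D w := ⟨ha, fun k => hW.2.1 k.symm, hW.2.2.symm⟩
  let C : Set G := perp D a ∩ perp D w
  let Y : Set G := {y | y ∈ D ∧ ¬ Commute a y ∧ ¬ Commute w y}
  have hiC : ∀ x, conjP g' x ∈ C ↔ x ∈ C := fun x => and_congr (hinv hg' x) (hinv hgW x)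
  have hcm : ∀ {k b : G} (x : G), Commute k b → (Commute b (k * x * k⁻¹) ↔ Commute b x) := by
    intro k b x hk
    conv_lhs => rw [show b = k * b * k⁻¹ by rw [hk.eq, mul_inv_cancel_right]]
    exact conj_commute_iff k b x
  have hiY : ∀ k, Commute k a → Commute k w → ∀ x, conjP k x ∈ Y ↔ x ∈ Y := fun k h1 h2 x =>
    and_congr (conj_iff hD k) (and_congr (not_congr (hcm x h1)) (not_congr (hcm x h2)))
  have hiP : ∀ x, conjP g' x ∈ perp D a ↔ x ∈ perp D a := hinv hg'
  have hiQ : ∀ x, conjP g' x ∈ perp D w ↔ x ∈ perp D w := hinv hgW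
  have hiR : ∀ x, conjP g' x ∈ perp D w \ perp D a ↔ x ∈ perp D w \ perp D a := fun x =>
    and_congr (hiQ x) (not_congr (hiP x))
  have hDeq : D = (perp D a ∪ (perp D w \ perp D a)) ∪ Y := by
    ext x
    constructor
    · intro hx
      by_cases h1 : Commute a x
      · by_cases h2 : x = a
        · subst h2; exact Or.inl (Or.inr ⟨haw, fun k => k.2.1 rfl⟩)
        · exact Or.inl (Or.inl ⟨hx, h2, h1⟩)
      · by_cases h2 : Commute w x
        · refine Or.inl (Or.inr ⟨⟨hx, fun k => h1 (k ▸ hW.2.2), h2⟩, fun k => h1 k.2.2⟩)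
        · exact Or.inr ⟨hx, h1, h2⟩
    · rintro ((h | h) | h)
      · exact h.1
      · exact h.1.1
      · exact h.1
  have hQeq : perp D w = C ∪ (perp D w \ perp D a) := by
    ext x
    constructor
    · intro hx
      by_cases h : x ∈ perp D a
      · exact Or.inl ⟨h, hx⟩
      · exact Or.inr ⟨hx, h⟩
    · rintro (h | h) <;> [exact h.2; exact h.1]
  have hsY : Equiv.Perm.sign (part (conjP g') Y) = 1 := by
    let _ : DecidablePred (· ∈ Y) := fun y => Classical.propDecidable _
    rw [part, dif_pos (hiY g' hg' hgW)]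
    refine (Equiv.Perm.sign_ofSubtype _).trans ?_
    have hwa : Commute w a := hW.2.2.symm
    have hsq : ∀ {b : G} (hb : b ∈ D) (hba : Commute b a) (hbw : Commute b w),
        (conjP b).subtypePerm (hiY b hba hbw) * (conjP b).subtypePerm (hiY b hba hbw) = 1 := by
      intro b hb hba hbw
      refine Equiv.ext fun x => Subtype.ext ?_
      show b * (b * x * b⁻¹) * b⁻¹ = x
      rw [inv_eq hD.1 hb, show b * (b * (x : G) * b) * b = (b * b) * x * (b * b) by group,
        sq_eq_one hD.1 hb, one_mul, mul_one]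
    have hcw : ∀ {k l : G} (h1 : Commute k a) (h2 : Commute k w) (h3 : Commute l a) (h4 : Commute l w),
        Commute k l → Commute ((conjP k).subtypePerm (hiY k h1 h2)) ((conjP l).subtypePerm (hiY l h3 h4)) := by
      intro k l h1 h2 h3 h4 hkl
      refine Equiv.ext fun x => Subtype.ext ?_
      show k * (l * x * l⁻¹) * k⁻¹ = l * (k * x * k⁻¹) * l⁻¹
      rw [show k * (l * (x : G) * l⁻¹) * k⁻¹ = k * l * x * (k * l)⁻¹ by group, hkl.eq]
      group
    refine sign_eq_one_of_free (hsq ha (Commute.refl a) hwa.symm) (hsq hwD hwa (Commute.refl w))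
      (hcw (Commute.refl a) hwa.symm hwa (Commute.refl w) hwa.symm) (hcw hg' hgW (Commute.refl a) hwa.symm hg')
      (hcw hg' hgW hwa (Commute.refl w) hgW) ?_ ?_ ?_
    · intro x h
      have h1 : a * (x : G) * a⁻¹ = x := congrArg Subtype.val h
      exact x.2.2.1 (mul_inv_eq_iff_eq_mul.1 h1)
    · intro x h
      have h1 : w * (x : G) * w⁻¹ = x := congrArg Subtype.val h
      exact x.2.2.2 (mul_inv_eq_iff_eq_mul.1 h1)
    · intro x h
      have h1 : a * (w * (x : G) * w⁻¹) * a⁻¹ = x := congrArg Subtype.val h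
      have h2 : Commute (x : G) [a, w].prod := by
        rw [List.prod_cons, List.prod_cons, List.prod_nil, mul_one]
        refine (mul_inv_eq_iff_eq_mul.1 ?_ : a * w * (x : G) = x * (a * w)).symm
        calc a * w * (x : G) * (a * w)⁻¹ = a * (w * (x : G) * w⁻¹) * a⁻¹ := by group
          _ = x := h1
      rcases weight hD.1 x.2.1 (l := [a, w])
        (fun y hy => by
          simp only [List.mem_cons, List.not_mem_nil, or_false] at hy
          rcases hy with rfl | rfl <;> assumption)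
        (by simpa using Ne.symm hW.2.1)
        (fun y hy z hz => by
          simp only [List.mem_cons, List.not_mem_nil, or_false] at hy hz
          rcases hy with rfl | rfl <;> rcases hz with rfl | rfl <;>
            first | exact Commute.refl _ | exact hwa | exact hwa.symm) h2 with k | ⟨L, hL, h4, -⟩
      · exact x.2.2.1 (k a (by simp)).symm
      · have := hL.length_le
        simp at this
        omega
  -- the common part
  have hval : (Subtype.val : H → G) '' (memberSet D a H ∩ quotMap e ⁻¹' ring' hF) = C := by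
    ext x
    constructor
    · rintro ⟨y, ⟨hy, r, hr, hrv, hrs, hre⟩, rfl⟩
      refine ⟨hy, hy.1, fun k => ?_, ?_⟩
      · rw [show y = W from Subtype.ext k, hWe] at hre
        obtain ⟨q, hq⟩ := pv_eq_span hF (by norm_num) hr (herm_plane hF ..)
          (fun k => hrs 0 (by rw [k, zero_smul])) hre
        exact hrs q hq
      · refine (commute_of_quotMap hG ha (H := H) rfl e hy hW ?_).symm
        rw [← hre, hWe]
        exact (tv_commute hF hr (herm_plane hF ..) hrv).map (QuotientGroup.mk' _)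
    · rintro ⟨hxa, hxw⟩
      let y : H := ⟨x, Subgroup.subset_closure hxa⟩
      obtain ⟨r, hr, hr0, hre⟩ := exists_pv_of_mem hF (by norm_num) hT hconj ⟨y, hxa, rfl⟩
      refine ⟨y, ⟨hxa, r, hr, ?_, fun q hq => ?_, hre.symm⟩, rfl⟩
      · refine herm_eq_zero_of_commute hF (by norm_num) hr (herm_plane hF ..) ?_
        rw [← hre, ← hWe]
        exact (show Commute y W from Subtype.ext hxw.2.2.symm.eq).map _
      · refine hxw.2.1 (congrArg Subtype.val (quotMap_inj hG ha (H := H) rfl e (x := y) hxa hW ?_))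
        have hq0 : q ≠ 0 := fun k => hr0 (by rw [hq, k, zero_smul])
        rw [hre, hWe]
        exact (pv_congr hF hr (by rw [← hq]; exact hr) hq).trans (pv_smul hF hq0 (herm_plane hF ..) _)
  have hring : ∀ p ∈ ring' hF, ∃ y ∈ memberSet D a H, quotMap e y = p := by
    rintro p ⟨r, hr, -, hrs, rfl⟩
    exact pv_mem hF (by norm_num) hT hconj hneH hr fun k => hrs 0 (by rw [k, zero_smul])
  have hcount : ∀ S : Set (Cfsg.PSU 6 F 2), S ⊆ ring' hF →
      ((Subtype.val : H → G) '' (memberSet D a H ∩ quotMap e ⁻¹' S)).ncard = S.ncard := by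
    intro S hS
    rw [Set.ncard_image_of_injective _ Subtype.val_injective,
      ← Set.InjOn.ncard_image (f := quotMap e) (fun x hx y hy h => quotMap_inj hG ha (H := H) rfl e hx.1 hy.1 h),
      Set.image_inter_preimage]
    congr 1
    ext p
    exact ⟨fun h => h.2, fun h => ⟨hring p (hS h), h⟩⟩
  have hψ' : ∀ y : H, y ∈ memberSet D a H →
      (PSUAut.semiAut D₁ (frob hF) (quotMap e y) = quotMap e y ↔ conjP g' (y : G) = y) := by
    intro y hy
    rw [hψ y]
    exact ⟨fun k => congrArg Subtype.val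
      (quotMap_inj hG ha (H := H) rfl e ((conj_mem_perp_iff hD hg').2 hy) hy k),
      fun k => congrArg (quotMap e) (Subtype.ext k)⟩
  have hsq : ∀ x ∈ C, conjP g' (conjP g' x) = x := by
    intro x hx
    let y : H := ⟨x, Subgroup.subset_closure hx.1⟩
    let y₁ : H := ⟨g' * x * g'⁻¹, conj_mem_closure_perp hD hg' y.2⟩
    let y₂ : H := ⟨g' * (g' * x * g'⁻¹) * g'⁻¹, conj_mem_closure_perp hD hg' y₁.2⟩
    obtain ⟨r, hr, hr0, hre⟩ := exists_pv_of_mem hF (by norm_num) hT hconj ⟨y, hx.1, rfl⟩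
    refine congrArg Subtype.val (quotMap_inj hG ha (H := H) rfl e (x := y₂) (y := y)
      ((conj_mem_perp_iff hD hg').2 ((conj_mem_perp_iff hD hg').2 hx.1)) hx.1 ?_)
    show quotMap e y₂ = quotMap e y
    rw [← hψ y₁, ← hψ y, hre, semiAut_pv, semiAut_pv]
    refine pv_congr hF _ _ ?_
    rw [move_diag hD₁, move_diag hD₁]
    have hμ2 : μ * (frob hF μ) = 1 := norm_eq_one hF hμ
    funext i
    fin_cases i <;> simp [frob_apply, (conj hF).invol] <;>
      rw [← mul_assoc, ← frob_apply hF μ, hμ2, one_mul]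
  have hsC : Equiv.Perm.sign (part (conjP g') C) = -1 := by
    refine sign_part_eq_neg_one hiC hsq ?_
    have h1 : C.ncard = 180 := by rw [← hval, hcount _ subset_rfl, ncard_ring]
    have h2 : {x ∈ C | conjP g' x = x}.ncard = 14 := by
      have himg : {x ∈ C | conjP g' x = x} = (Subtype.val : H → G) '' (memberSet D a H ∩
          quotMap e ⁻¹' {p ∈ ring' hF | PSUAut.semiAut D₁ (frob hF) p = p}) := by
        ext x
        constructor
        · rintro ⟨hx, hfix⟩
          obtain ⟨y, ⟨hy, hyr⟩, rfl⟩ := hval.symm ▸ hx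
          exact ⟨y, ⟨hy, hyr, (hψ' y hy).2 hfix⟩, rfl⟩
        · rintro ⟨y, ⟨hy, hyr, hfix⟩, rfl⟩
          exact ⟨hval ▸ ⟨y, ⟨hy, hyr⟩, rfl⟩, (hψ' y hy).1 hfix⟩
      rw [himg, hcount _ (fun p hp => hp.1), ncard_fixed hF hμ hD₁]
    rw [h1, h2]
    decide
  have hd1 : Disjoint (perp D a ∪ (perp D w \ perp D a)) Y := by
    rw [Set.disjoint_left]
    rintro x (h | h) hY
    · exact hY.2.1 h.2.2
    · exact hY.2.2 h.1.2.2
  have hU : ∀ x, conjP g' x ∈ perp D a ∪ (perp D w \ perp D a) ↔ x ∈ perp D a ∪ (perp D w \ perp D a) :=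
    fun x => or_congr (hiP x) (hiR x)
  rw [hDeq, part_union hU (hiY g' hg' hgW) hd1, map_mul, hsY, mul_one,
    part_union hiP hiR Set.disjoint_sdiff_right, map_mul] at hsD
  rw [hQeq, part_union hiC hiR (Set.disjoint_left.2 fun x h1 h2 => h2.2 h1.1), map_mul, hsC] at hpw
  rw [← hpw, mul_assoc, Int.units_mul_self, mul_one] at hsD
  exact absurd hsD (by decide)

/-- The centralizer of a member is its local group. -/
theorem centralizer_eq_closure {d : G} (hd : d ∈ D) :
    Subgroup.centralizer ({d} : Set G) = Subgroup.closure (perp D d) := by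
  refine le_antisymm (fun g hg => centralizer_mem hD hprim ht hd ?_) ((Subgroup.closure_le _).2 fun y hy =>
    Subgroup.mem_centralizer_singleton_iff.2 hy.2.2.symm.eq)
  exact Subgroup.mem_centralizer_singleton_iff.1 hg

end CfsgLib.Pre22
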