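import Cfsg.Agent.Lib.Fischer.TypeTwentyTwoCount
import Cfsg.Agent.Lib.Fischer.Recognition.Pre.Centralizer

/-!
Groups of type M(22): the class has 3510 members, the group order, and the width 22.

The commuting graph is strongly regular with valency 693 and 180 common neighbours of adjacent
points. Integrality of the eigenprojection and of the trace on it of a product of two commuting
members leaves a single number of common neighbours of non-adjacent points, 126.
-/

set_option autoImplicit false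
set_option linter.unusedSectionVars false

namespace CfsgLib.Pre22

open CfsgLib.Fischer CfsgLib.Fischer.TypeTwentyTwo CfsgLib.Fischer.TypeTwentyTwo

open CfsgLib.Fischer CfsgLib.InvChar.FischerProducts CfsgLib.InvChar.FischerHexad
open CfsgLib.InvChar.UnitaryTVTwo CfsgLib.Fischer.UnitaryHyperoval CfsgLib.Fischer.UnitarySemilinear

variable {G : Type*} [Group G] [Finite G] {D : Set G}
variable (hD : Cfsg.IsThreeTranspositionGroup D) (hprim : Cfsg.IsPrimitiveUnderConj D)
  (ht : PreM22 G D)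

include hD hprim ht

/-- The members not commuting with `d` form one orbit. -/
theorem mem_perpOrbit {d x y : G} (hd : d ∈ D) (hx : x ∈ D) (hy : y ∈ D) (hdx : ¬ Commute d x)
    (hdy : ¬ Commute d y) : y ∈ perpOrbit D d x := by
  by_contra horb
  have hxy : ¬ Commute x y := fun k => horb (orbit_of_commute hD hd hx hy hdx hdy k)
  have hG := good_of_primitive hD hprim ht.1
  have hconn := connected hD hprim ht
  have main : ∀ x y : G, x ∈ D → y ∈ D → ¬ Commute d x → ¬ Commute d y → ¬ Commute x y → y ∉ perpOrbit D d x →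
      common D d x ⊆ common D d y → False := by
    intro x y hx hy hdx hdy hxy horb hsub
    obtain ⟨f, hf⟩ := common_nonempty hD hd hconn hx hdx
    obtain ⟨hfD, hfd, hdf, hxf⟩ := hf
    have hyf : Commute y f := (hsub ⟨hfD, hfd, hdf, hxf⟩).2.2.2
    obtain ⟨F, _, _, hF, ⟨e⟩⟩ := exists_equiv_of_type22 hD hprim ht hfD
    let H : Subgroup G := Subgroup.closure (perp D f)
    obtain ⟨hT, hconj⟩ := image_tt hG hfD (H := H) rfl e
    have hdp : d ∈ perp D f := ⟨hd, Ne.symm hfd, hdf.symm⟩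
    have hxp : x ∈ perp D f := ⟨hx, fun k => hdx (k ▸ hdf), hxf.symm⟩
    have hyp : y ∈ perp D f := ⟨hy, fun k => hdy (k ▸ hdf), hyf.symm⟩
    let d₁ : H := ⟨d, Subgroup.subset_closure hdp⟩
    let x₁ : H := ⟨x, Subgroup.subset_closure hxp⟩
    let y₁ : H := ⟨y, Subgroup.subset_closure hyp⟩
    obtain ⟨u, hu, hu0, hde⟩ := exists_pv_of_mem hF (by norm_num) hT hconj ⟨d₁, hdp, rfl⟩
    obtain ⟨v, hv, hv0, hxe⟩ := exists_pv_of_mem hF (by norm_num) hT hconj ⟨x₁, hxp, rfl⟩
    obtain ⟨r, hr, hr0, hye⟩ := exists_pv_of_mem hF (by norm_num) hT hconj ⟨y₁, hyp, rfl⟩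
    have hcm : ∀ {a b : H} {s t : Fin 6 → F} (hs : Cfsg.hermForm 6 F 2 s s = 0)
        (ht' : Cfsg.hermForm 6 F 2 t t = 0), a ∈ memberSet D f H → b ∈ memberSet D f H →
        quotMap e a = pv hF s hs → quotMap e b = pv hF t ht' → Cfsg.hermForm 6 F 2 s t = 0 →
        Commute (a : G) b := by
      intro a b s t hs ht' ha hb ea eb k
      refine commute_of_quotMap hG hfD (H := H) rfl e ha hb ?_
      rw [ea, eb]
      exact (tv_commute hF hs ht' k).map (QuotientGroup.mk' _)
    have huv : Cfsg.hermForm 6 F 2 u v ≠ 0 := fun k => hdx (hcm hu hv (a := d₁) (b := x₁) hdp hxp hde hxe k)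
    have hru : Cfsg.hermForm 6 F 2 r u ≠ 0 := fun k =>
      hdy (hcm hr hu (a := y₁) (b := d₁) hyp hdp hye hde k).symm
    have hperp : ∀ k, Cfsg.hermForm 6 F 2 k k = 0 → Cfsg.hermForm 6 F 2 k u = 0 →
        Cfsg.hermForm 6 F 2 k v = 0 → Cfsg.hermForm 6 F 2 k r = 0 := by
      intro k hk hku hkv
      by_cases hk0 : k = 0
      · subst hk0; exact (conj hF).zero_left _
      obtain ⟨g, hg, hgk⟩ := pv_mem hF (by norm_num) hT hconj ⟨_, d₁, hdp, rfl⟩ hk hk0
      have hgd : Commute (g : G) d := hcm hk hu (b := d₁) hg hdp hgk hde hku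
      have hgx : Commute (g : G) x := hcm hk hv (b := x₁) hg hxp hgk hxe hkv
      have hgy : Commute y (g : G) := (hsub ⟨hg.1, fun c => hdx (c ▸ hgx), hgd.symm, hgx.symm⟩).2.2.2
      refine herm_eq_zero_of_commute hF (by norm_num) hk hr ?_
      rw [← hgk, ← hye]
      exact (show Commute g y₁ from Subtype.ext hgy.symm.eq).map _
    rcases pv_eq_or_conj hF (by norm_num) hu hv hr huv hru hperp with k | k
    · have : y₁ = x₁ := quotMap_inj hG hfD (H := H) rfl e hyp hxp (hye.trans (k.trans hxe.symm))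
      exact hxy (by rw [show y = x from congrArg Subtype.val this])
    · have : y₁ = d₁ * x₁ * d₁⁻¹ := quotMap_inj hG hfD (H := H) rfl e hyp
        ((memberSet_tt hG.tt rfl).2.1 d₁ _ hxp) (hye.trans (k.trans (by rw [map_mul, map_mul, map_inv, hde, hxe])))
      exact horb ⟨d, Subgroup.subset_closure ⟨hd, Commute.refl d⟩, congrArg Subtype.val this⟩
  rcases common_subset_or hD hd hx hy hdx hdy horb with h | h
  · exact main x y hx hy hdx hdy hxy horb h
  · exact main y x hy hx hdy hdx (fun k => hxy k.symm) (fun k => horb (perpOrbit_symm k)) h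

/-- Adjacent members have 180 common neighbours. -/
theorem ncard_common_commute {a w : G} (ha : a ∈ D) (hw : w ∈ perp D a) :
    (perp D a ∩ perp D w).ncard = 180 := by
  have hG := good_of_primitive hD hprim ht.1
  obtain ⟨F, _, _, hF, ⟨e⟩⟩ := exists_equiv_of_type22 hD hprim ht ha
  let H : Subgroup G := Subgroup.closure (perp D a)
  obtain ⟨hT, hconj⟩ := image_tt hG ha (H := H) rfl e
  have hneH := (memberSet_nonempty hD hprim ht ha).image (quotMap e)
  obtain ⟨W, hW, hWe⟩ := pv_mem hF (by norm_num) hT hconj hneH (herm_plane hF (1 : F) 0 0 1 0 0)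
    (plane_ne_zero (Or.inl one_ne_zero))
  obtain ⟨h, hh, hhw⟩ := (local_of_type22 hD hprim ht).trans a ha (W : G) hW w hw
  have hha : Commute h a := (commute_d (H := H) rfl hh).symm
  have himg : perp D a ∩ perp D w = (fun x => h * x * h⁻¹) '' (perp D a ∩ perp D (W : G)) := by
    ext x
    constructor
    · rintro ⟨hx1, hx2⟩
      refine ⟨h⁻¹ * x * h⁻¹⁻¹, ⟨(conj_mem_perp_iff hD hha.inv_left).2 hx1, ?_⟩, by group⟩
      have := CfsgLib.InvChar.FischerHexad.perp_conj hD h⁻¹ hx2
      rwa [MulAut.conj_apply, MulAut.conj_apply, ← hhw, show h⁻¹ * (h * (W : G) * h⁻¹) * h⁻¹⁻¹ = W by group] at this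
    · rintro ⟨y, ⟨hy1, hy2⟩, rfl⟩
      refine ⟨(conj_mem_perp_iff hD hha).2 hy1, ?_⟩
      have := CfsgLib.InvChar.FischerHexad.perp_conj hD h hy2
      rwa [MulAut.conj_apply, MulAut.conj_apply, hhw] at this
  rw [himg, Set.ncard_image_of_injective _ (fun x y k => mul_left_cancel (mul_right_cancel k))]
  have hval : perp D a ∩ perp D (W : G) =
      (Subtype.val : H → G) '' (memberSet D a H ∩ quotMap e ⁻¹' ring' hF) := by
    ext x
    constructor
    · rintro ⟨hxa, hxw⟩
      let y : H := ⟨x, Subgroup.subset_closure hxa⟩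
      obtain ⟨r, hr, hr0, hre⟩ := exists_pv_of_mem hF (by norm_num) hT hconj ⟨y, hxa, rfl⟩
      refine ⟨y, ⟨hxa, r, hr, ?_, fun q hq => ?_, hre.symm⟩, rfl⟩
      · refine herm_eq_zero_of_commute hF (by norm_num) hr (herm_plane hF ..) ?_
        rw [← hre, ← hWe]
        exact (show Commute y W from Subtype.ext hxw.2.2.symm.eq).map _
      · refine hxw.2.1 (congrArg Subtype.val (quotMap_inj hG ha (H := H) rfl e (x := y) hxa hW ?_))
        have hq0 : q ≠ 0 := fun k => hr0 (by rw [hq, k, zero_smul])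
        rw [hre, hWe]
        exact (pv_congr hF hr (by rw [← hq]; exact hr) hq).trans (pv_smul hF hq0 (herm_plane hF ..) _)
    · rintro ⟨y, ⟨hy, r, hr, hrv, hrs, hre⟩, rfl⟩
      refine ⟨hy, hy.1, fun k => ?_, ?_⟩
      · rw [show y = W from Subtype.ext k, hWe] at hre
        obtain ⟨q, hq⟩ := pv_eq_span hF (by norm_num) hr (herm_plane hF ..)
          (fun k => hrs 0 (by rw [k, zero_smul])) hre
        exact hrs q hq
      · refine (commute_of_quotMap hG ha (H := H) rfl e hy hW ?_).symm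
        rw [← hre, hWe]
        exact (tv_commute hF hr (herm_plane hF ..) hrv).map (QuotientGroup.mk' _)
  rw [hval, Set.ncard_image_of_injective _ Subtype.val_injective,
    ← Set.InjOn.ncard_image (f := quotMap e) (fun x hx y hy k => quotMap_inj hG ha (H := H) rfl e hx.1 hy.1 k),
    Set.image_inter_preimage]
  have : quotMap e '' memberSet D a H ∩ ring' hF = ring' hF := by
    refine Set.inter_eq_right.2 ?_
    rintro p ⟨r, hr, -, hrs, rfl⟩
    exact pv_mem hF (by norm_num) hT hconj hneH hr fun k => hrs 0 (by rw [k, zero_smul])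
  rw [this, ncard_ring]

/-- Non-commuting members all have equally many common neighbours. -/
theorem ncard_common_const {d x d' x' : G} (hd : d ∈ D) (hx : x ∈ D) (hdx : ¬ Commute d x) (hd' : d' ∈ D)
    (hx' : x' ∈ D) (hdx' : ¬ Commute d' x') : (common D d x).ncard = (common D d' x').ncard := by
  obtain ⟨g, hg⟩ := hprim.1 d hd d' hd'
  have hdx'' : ¬ Commute d (g⁻¹ * x' * g) := by
    intro k
    have := (conj_commute_iff g _ _).2 k
    rw [hg, show g * (g⁻¹ * x' * g) * g⁻¹ = x' by group] at this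
    exact hdx' this
  have hyD : g⁻¹ * x' * g ∈ D := by simpa using hD.2.1 g⁻¹ x' hx'
  rw [← ncard_common_of_orbit hD (mem_perpOrbit hD hprim ht hd hx hyD hdx hdx'')]
  have himg : common D d' x' = (fun f => g * f * g⁻¹) '' common D d (g⁻¹ * x' * g) := by
    rw [← hg]
    ext f
    constructor
    · rintro ⟨hf, hne, h1, h2⟩
      refine ⟨g⁻¹ * f * g, ⟨by simpa using hD.2.1 g⁻¹ f hf, fun k => hne (by rw [← k]; group), ?_, ?_⟩, by group⟩
      · have := (conj_commute_iff g⁻¹ _ _).2 h1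
        simpa [mul_assoc] using this
      · have := (conj_commute_iff g⁻¹ _ _).2 h2
        simpa [mul_assoc] using this
    · rintro ⟨y, ⟨hy, hne, h1, h2⟩, rfl⟩
      refine ⟨hD.2.1 g y hy, fun k => hne (mul_left_cancel (mul_right_cancel k)), (conj_commute_iff g _ _).2 h1, ?_⟩
      have := (conj_commute_iff g _ _).2 h2
      rwa [show g * (g⁻¹ * x' * g) * g⁻¹ = x' by group] at this
  rw [himg, Set.ncard_image_of_injective _ fun a b k => mul_left_cancel (mul_right_cancel k)]

theorem ncard_eq : D.ncard = 3510 := by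
  classical
  let _ : Fintype G := Fintype.ofFinite G
  let α := {x : G // x ∈ D}
  let R : α → α → Prop := fun x y => (x : G) ≠ y ∧ Commute (x : G) y
  obtain ⟨d₀, hd₀, x₀, hx₀, hne₀⟩ := id hprim.2.1
  haveI : Nonempty α := ⟨⟨d₀, hd₀⟩⟩
  -- counting in `α`
  have hcard : ∀ (p : α → Prop) [DecidablePred p] (S : Set G), (∀ y ∈ S, y ∈ D) →
      (∀ z : α, p z ↔ (z : G) ∈ S) → (Finset.univ.filter p).card = S.ncard := by
    intro p _ S hS hp
    rw [← Set.ncard_coe_finset, ← Set.ncard_image_of_injective _ Subtype.val_injective]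
    congr 1
    ext y
    constructor
    · rintro ⟨z, hz, rfl⟩
      exact (hp z).1 (Finset.mem_filter.1 hz).2
    · intro hy
      exact ⟨⟨y, hS y hy⟩, Finset.mem_filter.2 ⟨Finset.mem_univ _, (hp _).2 hy⟩, rfl⟩
  have hv : Fintype.card α = D.ncard := by
    rw [← Nat.card_coe_set_eq, Nat.card_eq_fintype_card]
  have hdeg : ∀ x : α, (Finset.univ.filter fun z => R x z).card = 693 := by
    intro x
    rw [← ncard_perp hD hprim ht x.2]
    exact hcard _ _ (fun y hy => hy.1) fun z => ⟨fun k => ⟨z.2, Ne.symm k.1, k.2⟩, fun k => ⟨Ne.symm k.2.1, k.2.2⟩⟩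
  -- a non-commuting pair
  obtain ⟨p, hp, hdp⟩ : ∃ p ∈ D, ¬ Commute d₀ p := by
    by_contra hc
    push Not at hc
    have := mem_center hD.2.2 hc
    rw [ht.1, Subgroup.mem_bot] at this
    exact ne_one hD.1 hd₀ this
  obtain ⟨μ, hμdef⟩ : ∃ μ, μ = (common D d₀ p).ncard := ⟨_, rfl⟩
  have hsrg : SRGTrace.IsSRG R 693 180 μ := by
    refine ⟨fun x y k => ⟨Ne.symm k.1, k.2.symm⟩, fun x k => k.1 rfl, hdeg, fun x y k => ?_, fun x y hne k => ?_⟩
    · rw [← ncard_common_commute hD hprim ht x.2 (w := (y : G)) ⟨y.2, Ne.symm k.1, k.2⟩]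
      exact hcard _ _ (fun y hy => hy.1.1) fun z => ⟨fun q => ⟨⟨z.2, Ne.symm q.1.1, q.1.2⟩, z.2, Ne.symm q.2.1, q.2.2⟩,
        fun q => ⟨⟨Ne.symm q.1.2.1, q.1.2.2⟩, Ne.symm q.2.2.1, q.2.2.2⟩⟩
    · have hnc : ¬ Commute (x : G) y := fun c => k ⟨fun q => hne (Subtype.ext q), c⟩
      rw [hμdef, ncard_common_const hD hprim ht hd₀ hp hdp x.2 y.2 hnc]
      exact hcard _ _ (fun y hy => hy.1) fun z => ⟨fun q => ⟨z.2, Ne.symm q.1.1, q.1.2, q.2.2⟩,
        fun q => ⟨⟨Ne.symm q.2.1, q.2.2.1⟩, fun c => hnc (c ▸ q.2.2.1), q.2.2.2⟩⟩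
  have hcount := SRGTrace.count_eq hsrg
  have h4 := ncard_mod_four hD hprim ht
  rw [hv] at hcount
  have hμle : μ ≤ 693 := by
    rw [hμdef, ← ncard_perp hD hprim ht hd₀]
    exact Set.ncard_le_ncard fun z hz => ⟨hz.1, hz.2.1, hz.2.2.1⟩
  obtain ⟨m, hm⟩ : ∃ m, D.ncard = 694 + m := by
    refine ⟨D.ncard - 694, ?_⟩
    have : (insert d₀ (perp D d₀)).ncard ≤ D.ncard :=
      Set.ncard_le_ncard (Set.insert_subset hd₀ fun y hy => hy.1)
    rw [Set.ncard_insert_of_notMem (fun k => k.2.1 rfl), ncard_perp hD hprim ht hd₀] at this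
    omega
  have hμm : μ * m = 354816 := by
    have : (μ : ℚ) * m = 354816 := by
      rw [hm] at hcount
      push_cast at hcount
      linear_combination -hcount
    exact_mod_cast this
  have hμpos : 0 < μ := Nat.pos_of_ne_zero fun k => by simp [k] at hμm
  have hdiv : 354816 / μ = m := by rw [← hμm, Nat.mul_div_cancel_left _ hμpos]
  have hm4 : m % 4 = 0 := by omega
  have hev : Even (Fintype.card α) := by rw [hv, Nat.even_iff]; omega
  have hne : 2 * ((693 : ℕ) : ℚ) - (((180 : ℕ) : ℚ) - μ) ≠ 0 := by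
    push_cast
    have : (0 : ℚ) ≤ (μ : ℚ) := Nat.cast_nonneg μ
    linarith
  have hsq := SRGTrace.disc_isSquare hsrg hev hne
  have hsqZ : IsSquare ((180 - (μ : ℤ)) ^ 2 + 4 * (693 - μ)) := by
    rw [← Rat.isSquare_intCast_iff]
    convert hsq using 1
    push_cast
    ring
  obtain ⟨dz, hdz⟩ := hsqZ
  obtain ⟨dn, hdn⟩ : ∃ dn, dn = dz.natAbs := ⟨_, rfl⟩
  have hdn2 : (dn : ℤ) * dn = (180 - (μ : ℤ)) ^ 2 + 4 * (693 - μ) := by
    rw [hdz, hdn, Int.natAbs_mul_self']
  have hdn0 : dn ≠ 0 := by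
    intro k
    subst k
    simp at hdn2
    nlinarith [sq_nonneg (180 - (μ : ℤ)), Int.ofNat_le.2 hμle]
  have hdQ : (dn : ℚ) * dn = (((180 : ℕ) : ℚ) - μ) ^ 2 + 4 * (((693 : ℕ) : ℚ) - μ) := by
    have := congrArg (Int.cast : ℤ → ℚ) hdn2
    push_cast at this ⊢
    linear_combination this
  -- the product of two commuting members
  obtain ⟨e, he⟩ := perp_nonempty hD hprim ht hd₀
  obtain ⟨j, hjdef⟩ : ∃ j, j = d₀ * e := ⟨_, rfl⟩
  have hjd : Commute j d₀ := hjdef ▸ (Commute.refl d₀).mul_left he.2.2.symm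
  have hje : Commute j e := hjdef ▸ he.2.2.mul_left (Commute.refl e)
  have hj2 : j * j = 1 := by
    rw [hjdef, show d₀ * e * (d₀ * e) = d₀ * (e * d₀) * e by group, ← he.2.2.eq,
      show d₀ * (d₀ * e) * e = (d₀ * d₀) * (e * e) by group, sq_eq_one hD.1 hd₀, sq_eq_one hD.1 he.1, mul_one]
  let σ : Equiv.Perm α := Function.Involutive.toPerm (fun x => ⟨j * x * j⁻¹, hD.2.1 j x x.2⟩) fun x =>
    Subtype.ext (by
      show j * (j * x * j⁻¹) * j⁻¹ = x
      rw [show j * (j * (x : G) * j⁻¹) * j⁻¹ = j * j * x * (j * j)⁻¹ by group, hj2, one_mul, inv_one, mul_one])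
  have hσ2 : ∀ x, σ (σ x) = x := fun x => (Function.Involutive.toPerm_involutive _) x
  have hσR : ∀ x y, R (σ x) (σ y) ↔ R x y := fun x y =>
    and_congr (not_congr ⟨fun k => mul_left_cancel (mul_right_cancel k),
      fun k => congrArg (fun z => j * z * j⁻¹) k⟩) (conj_commute_iff j _ _)
  obtain ⟨n, n', hn, hn'⟩ := SRGTrace.trace_conditions hsrg hdQ (Nat.cast_ne_zero.2 hdn0) σ hσ2 hσR
  have hmod : ((694 + (m : ℤ)) * ((dn : ℤ) - (180 - μ)) - (2 * 693 - (180 - μ) + dn)) % (2 * (dn : ℤ)) = 0 := by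
    refine Int.emod_eq_zero_of_dvd ⟨n, ?_⟩
    rw [hv, hm] at hn
    push_cast at hn
    have : (((694 + (m : ℤ)) * ((dn : ℤ) - (180 - μ)) - (2 * 693 - (180 - μ) + dn) : ℤ) : ℚ) =
        ((2 * (dn : ℤ) * n : ℤ) : ℚ) := by
      push_cast
      linear_combination hn
    exact_mod_cast this
  rcases decide_mu μ (by omega) ⟨m, hμm.symm⟩ (by rw [hdiv]; exact hm4) dn hdn2 (by rw [hdiv]; exact hmod)
    with h126 | ⟨h198, h48⟩
  · rw [h126] at hμm
    omega
  exfalso
  rw [h198] at hμm
  have hm' : m = 1792 := by omega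
  -- fixed members, and members moved to commuting ones
  let P : Set G := perp D d₀
  let Q : Set G := perp D e
  have hC : (P ∩ Q).ncard = 180 := ncard_common_commute hD hprim ht hd₀ he
  let Y : Set G := {y | y ∈ D ∧ ¬ Commute d₀ y ∧ ¬ Commute e y}
  have hfixed : ∀ y : G, y ∈ D → (j * y * j⁻¹ = y ↔ y = d₀ ∨ y = e ∨ y ∈ P ∩ Q) := by
    intro y hy
    rw [mul_inv_eq_iff_eq_mul]
    constructor
    · intro k
      have hw : Commute y [d₀, e].prod := by
        rw [List.prod_cons, List.prod_cons, List.prod_nil, mul_one, ← hjdef]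
        exact (show Commute j y from k).symm
      rcases weight hD.1 hy (l := [d₀, e])
        (fun z hz => by
          simp only [List.mem_cons, List.not_mem_nil, or_false] at hz
          rcases hz with rfl | rfl <;> [exact hd₀; exact he.1])
        (by simpa using Ne.symm he.2.1)
        (fun z hz t ht => by
          simp only [List.mem_cons, List.not_mem_nil, or_false] at hz ht
          rcases hz with rfl | rfl <;> rcases ht with rfl | rfl <;>
            first | exact Commute.refl _ | exact he.2.2 | exact he.2.2.symm) hw with hall | ⟨L, hL, h4', -⟩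
      · by_cases h1 : y = d₀
        · exact Or.inl h1
        by_cases h2 : y = e
        · exact Or.inr (Or.inl h2)
        exact Or.inr (Or.inr ⟨⟨hy, h1, (hall d₀ (by simp)).symm⟩, hy, h2, (hall e (by simp)).symm⟩)
      · have := hL.length_le
        simp at this
        omega
    · rintro (rfl | rfl | ⟨h1, h2⟩)
      · exact hjd.eq
      · exact hje.eq
      · exact (hjdef ▸ h1.2.2.mul_left h2.2.2 : Commute j y).eq
  have hfix : (Finset.univ.filter fun x : α => σ x = x).card = 182 := by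
    refine (hcard _ (insert d₀ (insert e (P ∩ Q))) (fun y hy => ?_) fun z => ?_).trans ?_
    · rcases hy with rfl | rfl | hy <;> [exact hd₀; exact he.1; exact hy.1.1]
    · rw [show σ z = z ↔ j * (z : G) * j⁻¹ = z from ⟨fun k => congrArg Subtype.val k, fun k => Subtype.ext k⟩,
        hfixed z z.2]
      rfl
    · rw [Set.ncard_insert_of_notMem, Set.ncard_insert_of_notMem, hC]
      · exact fun k => k.2.2.1 rfl
      · rintro (k | k)
        · exact he.2.1 k.symm
        · exact k.1.2.1 rfl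
  have hmoved : ∀ y : G, y ∈ D → ((j * y * j⁻¹ ≠ y ∧ Commute (j * y * j⁻¹) y) ↔ y ∈ Y) := by
    intro y hy
    constructor
    · rintro ⟨hne', hc⟩
      have hone : ∀ a b : G, a ∈ D → b ∈ D → j = b * a → Commute a y → ¬ Commute b y → False := by
        intro a b ha hb hjab hay hby
        have e1 : j * y * j⁻¹ = b * y * b⁻¹ := by
          rw [hjab, show b * a * y * (b * a)⁻¹ = b * (a * y * a⁻¹) * b⁻¹ by group, hay.eq, mul_inv_cancel_right]
        rw [e1, inv_eq hD.1 hb] at hc
        exact not_commute_third_right hD.1 hb hy hby hc.symm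
      refine ⟨hy, fun h1 => ?_, fun h2 => ?_⟩
      · by_cases h2 : Commute e y
        · exact hne' (mul_inv_eq_iff_eq_mul.2 (hjdef ▸ h1.mul_left h2 : Commute j y).eq)
        · exact hone d₀ e hd₀ he.1 (hjdef.trans he.2.2.eq) h1 h2
      · by_cases h1 : Commute d₀ y
        · exact hne' (mul_inv_eq_iff_eq_mul.2 (hjdef ▸ h1.mul_left h2 : Commute j y).eq)
        · exact hone e d₀ he.1 hd₀ hjdef h2 h1
    · rintro ⟨-, h1, h2⟩
      have := product_moves hD hd₀ he.1 (Ne.symm he.2.1) he.2.2 hy h1 (fun c => h2 c.symm)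
      rw [← hjdef] at this
      exact ⟨this.2, this.1⟩
  have hPQ : P ∪ Q ∪ Y = D := by
    ext y
    constructor
    · rintro ((k | k) | k) <;> exact k.1
    · intro hy
      by_cases h1 : Commute d₀ y
      · by_cases hq : y = d₀
        · exact Or.inl (Or.inr ⟨hy, hq ▸ Ne.symm he.2.1, hq ▸ he.2.2.symm⟩)
        · exact Or.inl (Or.inl ⟨hy, hq, h1⟩)
      · by_cases h2 : Commute e y
        · exact Or.inl (Or.inr ⟨hy, fun q => h1 (q ▸ he.2.2), h2⟩)
        · exact Or.inr ⟨hy, h1, h2⟩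
  have hY : Y.ncard = 1280 := by
    have h1 := Set.ncard_union_add_ncard_inter P Q
    rw [hC, show P.ncard = 693 from ncard_perp hD hprim ht hd₀,
      show Q.ncard = 693 from ncard_perp hD hprim ht he.1] at h1
    have h2 : (P ∪ Q ∪ Y).ncard = (P ∪ Q).ncard + Y.ncard := Set.ncard_union_eq (by
      rw [Set.disjoint_left]
      rintro y (k | k) hYy
      · exact hYy.2.1 k.2.2
      · exact hYy.2.2 k.2.2)
    rw [hPQ, hm, hm'] at h2
    omega
  have hN : (Finset.univ.filter fun x : α => R (σ x) x).card = 1280 := by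
    rw [← hY]
    exact hcard _ Y (fun y hy => hy.1) fun z => hmoved z z.2
  rw [hv, hm, hm', h198, h48] at hn
  rw [hfix, hN, h198, h48] at hn'
  norm_num at hn hn'
  have hnZ : (n : ℤ) = 1694 := by
    have : ((n : ℤ) : ℚ) = ((1694 : ℤ) : ℚ) := by push_cast; linarith
    exact_mod_cast this
  have : (2 * (n' : ℤ) - n) * 96 = 13120 := by
    have : (((2 * (n' : ℤ) - n) * 96 : ℤ) : ℚ) = ((13120 : ℤ) : ℚ) := by push_cast; linarith
    exact_mod_cast this
  omega

theorem natCard_centralizer {d : G} (hd : d ∈ D) : Nat.card (Subgroup.centralizer ({d} : Set G)) = 18393661440 := by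
  obtain ⟨F, _, _, hF, ⟨e⟩⟩ := exists_equiv_of_type22 hD hprim ht hd
  rw [centralizer_eq_closure hD hprim ht hd,
    Subgroup.card_eq_card_quotient_mul_card_subgroup (Subgroup.center (Subgroup.closure (perp D d))),
    Nat.card_congr e.toEquiv, natCard_psu_six hF, center_eq hD hprim ht hd,
    Nat.card_congr (Subgroup.subgroupOfEquivOfLe (Subgroup.zpowers_le.2 (mem_closure_perp hD hprim ht hd))).toEquiv,
    Nat.card_zpowers, hD.1.1 d hd]

theorem natCard_group : Nat.card G = 2 ^ 17 * 3 ^ 9 * 5 ^ 2 * 7 * 11 * 13 := by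
  obtain ⟨d, hd, -⟩ := id hprim.2.1
  let f : G ⧸ Subgroup.centralizer ({d} : Set G) → D := Quotient.lift (fun g => ⟨g * d * g⁻¹, hD.2.1 g d hd⟩)
    (fun a b hab => Subtype.ext (by
      have h := Subgroup.mem_centralizer_singleton_iff.1 (QuotientGroup.leftRel_apply.1 hab)
      calc a * d * a⁻¹ = a * (d * (a⁻¹ * b)) * b⁻¹ := by group
        _ = a * ((a⁻¹ * b) * d) * b⁻¹ := by rw [h]
        _ = b * d * b⁻¹ := by group))
  have hf : Function.Bijective f := by
    constructor
    · intro x y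
      obtain ⟨a, rfl⟩ := QuotientGroup.mk_surjective x
      obtain ⟨b, rfl⟩ := QuotientGroup.mk_surjective y
      intro k
      have k' : a * d * a⁻¹ = b * d * b⁻¹ := congrArg Subtype.val k
      refine QuotientGroup.eq.2 (Subgroup.mem_centralizer_singleton_iff.2 ?_)
      calc a⁻¹ * b * d = a⁻¹ * (b * d * b⁻¹) * b := by group
        _ = a⁻¹ * (a * d * a⁻¹) * b := by rw [k']
        _ = d * (a⁻¹ * b) := by group
    · rintro ⟨y, hy⟩
      obtain ⟨g, rfl⟩ := hprim.1 d hd y hy
      exact ⟨QuotientGroup.mk g, rfl⟩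
  rw [Subgroup.card_eq_card_quotient_mul_card_subgroup (Subgroup.centralizer ({d} : Set G)),
    Nat.card_eq_of_bijective f hf, Nat.card_coe_set_eq, ncard_eq hD hprim ht, natCard_centralizer hD hprim ht hd]
  norm_num

end CfsgLib.Pre22
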