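import Cfsg.Agent.Lib.Fischer.M22Unique.Exists
import Cfsg.Agent.Lib.Fischer.Recognition.Pre.Trace

/-!
A class of type M(22) contains nine members in the shape of the diagram Y332.
-/

set_option autoImplicit false
set_option linter.unusedSectionVars false
set_option linter.style.haveILetI false

namespace CfsgLib.Pre22

open CfsgLib.Fischer CfsgLib.Fischer.TypeTwentyTwo CfsgLib.Fischer.M22Unique

open CfsgLib.Fischer CfsgLib.InvChar.FischerProducts CfsgLib.InvChar.FischerHexad CfsgLib.Fischer.PairThree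

variable {G : Type*} [Group G] [Finite G] {D : Set G}

variable (hD : Cfsg.IsThreeTranspositionGroup D) (hprim : Cfsg.IsPrimitiveUnderConj D)
  (ht : PreM22 G D)

include hD hprim ht

set_option maxHeartbeats 3200000 in
theorem exists_config : ∃ σ : Nat → G, Config D σ := by
  obtain ⟨-, a, ha, b, hb, hab, -⟩ := id ht
  obtain ⟨f, g, i, h, d, hf, hg, hi, hh, hd, hfg, hih, hhd, hid, hne, if', ig, hf', hg', df, dg⟩ :=
    exists_string_trace hD hprim ht ha hb hab
  obtain ⟨q, hqinj, hqr, hqc, -, -⟩ := exists_points_at hD hprim ht ha hb hab hg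
  have hin : ∀ {x : G}, x ∈ common D a b → x ≠ g → Commute x g → x ∈ Set.range q := fun hx hn hc =>
    hqr ▸ ⟨hx, hx.1, hn, hc.symm⟩
  obtain ⟨qi, rfl⟩ := hin hi (fun k => hfg (by rw [← k]; exact if'.symm)) ig
  obtain ⟨qh, rfl⟩ := hin hh (fun k => hfg (by rw [← k]; exact hf'.symm)) hg'
  obtain ⟨qd, rfl⟩ := hin hd (fun k => hfg (by rw [← k]; exact df.symm)) dg
  obtain ⟨qe, eie, ehe, ede⟩ := string_extend qi qh qd (fun k => hih ((hqc _ _).2 k)) (fun k => hhd ((hqc _ _).2 k))
    ((hqc _ _).1 hid) (fun k => hne (congrArg q k))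
  have hie : Commute (q qi) (q qe) := (hqc _ _).2 eie
  have hhe : Commute (q qh) (q qe) := (hqc _ _).2 ehe
  have hde : ¬ Commute (q qd) (q qe) := fun k => ede ((hqc _ _).1 k)
  have he' : q qe ∈ common D a b ∩ perp D g := hqr ▸ Set.mem_range_self qe
  obtain ⟨he, -, hegne, hge⟩ := he'
  obtain ⟨i, hi'⟩ : ∃ i, i = q qi := ⟨_, rfl⟩
  obtain ⟨h, hh''⟩ : ∃ h, h = q qh := ⟨_, rfl⟩
  obtain ⟨d, hd''⟩ : ∃ d, d = q qd := ⟨_, rfl⟩
  obtain ⟨e, he''⟩ : ∃ e, e = q qe := ⟨_, rfl⟩
  rw [← hi'] at hi hih hid hne if' ig hie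
  rw [← hh''] at hh hih hhd hf' hg' hhe
  rw [← hd''] at hd hhd hid hne df dg hde
  rw [← he''] at he hie hhe hde hegne hge
  have chain : ∀ z : G, z ∈ common D a b → Commute z f → Commute z g → Commute i z → Commute h z →
      ¬ Commute d z → False := by
    intro z hz hzf hzg hiz hhz hdz
    refine no_chain_four hD hprim ht ha hb hab hf hg hfg (x := ![i, h, d, z]) ?_ ?_
    · intro m
      fin_cases m
      exacts [⟨hi, if', ig⟩, ⟨hh, hf', hg'⟩, ⟨hd, df, dg⟩, ⟨hz, hzf, hzg⟩]
    · intro m n
      fin_cases m <;> fin_cases n <;>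
        simp [Commute.refl, hih, commute_iff_of_false hih, hhd, commute_iff_of_false hhd, hid, hid.symm, hiz, hiz.symm,
          hhz, hhz.symm, hdz, commute_iff_of_false hdz]
  have hef : ¬ Commute e f := fun k => chain e he k hge.symm hie hhe hde
  have hfp : ∀ {x : G}, x ∈ common D a b → x ∈ perp D a := fun hx => ⟨hx.1, hx.2.1, hx.2.2.1⟩
  obtain ⟨c, hc, hce, hcg, hcf, hboth, honly, -, hlast⟩ :=
    exists_mid hD hprim ht ha (hfp he) (hfp hf) (hfp hg) hge.symm hegne hef (fun k => hfg k.symm)
  have hci : Commute i c := hboth i (hfp hi) hie ig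
  have hch : Commute h c := hboth h (hfp hh) hhe hg'
  have hcd : ¬ Commute d c := honly d (hfp hd) dg hde
  have hcb : ¬ Commute b c := by
    intro k
    exact chain c ⟨hc.1, hc.2.1, hc.2.2, k⟩ hcf hcg hci hch hcd
  have hcne : ∀ {x : G}, Commute b x → c ≠ x := fun hx k => hcb (k ▸ hx)
  have hbne : ∀ {x : G}, x ∈ common D a b → b ≠ x := fun hx k => hab (k ▸ hx.2.2.1)
  have dist : ∀ {u v z : G}, Commute u z → ¬ Commute v z → u ≠ v := fun h1 h2 k => h2 (k ▸ h1)
  have d_f : d ≠ f := (dist hf'.symm (fun k => hhd k.symm)).symm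
  have d_g : d ≠ g := (dist hg'.symm (fun k => hhd k.symm)).symm
  have e_g : e ≠ g := hegne
  have e_h : e ≠ h := (dist hf' hef).symm
  have e_i : e ≠ i := (dist if' hef).symm
  have f_h : f ≠ h := (dist hg' hfg).symm
  have f_i : f ≠ i := (dist ig hfg).symm
  have g_h : g ≠ h := dist dg.symm hhd
  have g_i : g ≠ i := dist hg'.symm hih
  refine ⟨fun n => [a, b, c, d, e, f, g, h, i].getD n 1, ⟨?_, ?_, ?_, ?_, ?_, ?_⟩⟩
  · intro x hx
    interval_cases x
    exacts [ha, hb, hc.1, hd.1, he.1, hf.1, hg.1, hh.1, hi.1]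
  · intro x hx
    exact List.getD_eq_default _ _ (by simpa using hx)
  · intro x y hxy
    unfold adjB at hxy
    split at hxy <;> first
      | contradiction
      | (simp only [List.getD_cons_succ, List.getD_cons_zero]
         first
           | exact hab
           | exact hcb
           | exact hcd
           | exact hde
           | exact hhd
           | exact hef
           | exact hfg
           | exact hih
           | exact commute_iff_of_false hab
           | exact commute_iff_of_false hcb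
           | exact commute_iff_of_false hcd
           | exact commute_iff_of_false hde
           | exact commute_iff_of_false hhd
           | exact commute_iff_of_false hef
           | exact commute_iff_of_false hfg
           | exact commute_iff_of_false hih)
  · have up : ∀ x y, x < y → commB x y = true →
        Commute ([a, b, c, d, e, f, g, h, i].getD x 1) ([a, b, c, d, e, f, g, h, i].getD y 1) ∧
          [a, b, c, d, e, f, g, h, i].getD x 1 ≠ [a, b, c, d, e, f, g, h, i].getD y 1 := by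
      intro x y hlt hxy
      have hy : y < 9 := by simp [commB] at hxy; omega
      interval_cases y <;> interval_cases x <;> simp [commB, adjB] at hxy ⊢
      all_goals first
        | exact ⟨hc.2.2, Ne.symm hc.2.1⟩
        | exact ⟨hd.2.2.1, Ne.symm hd.2.1⟩
        | exact ⟨he.2.2.1, Ne.symm he.2.1⟩
        | exact ⟨hf.2.2.1, Ne.symm hf.2.1⟩
        | exact ⟨hg.2.2.1, Ne.symm hg.2.1⟩
        | exact ⟨hh.2.2.1, Ne.symm hh.2.1⟩
        | exact ⟨hi.2.2.1, Ne.symm hi.2.1⟩
        | exact ⟨hd.2.2.2, hbne hd⟩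
        | exact ⟨he.2.2.2, hbne he⟩
        | exact ⟨hf.2.2.2, hbne hf⟩
        | exact ⟨hg.2.2.2, hbne hg⟩
        | exact ⟨hh.2.2.2, hbne hh⟩
        | exact ⟨hi.2.2.2, hbne hi⟩
        | exact ⟨hce, hcne he.2.2.2⟩
        | exact ⟨hcf, hcne hf.2.2.2⟩
        | exact ⟨hcg, hcne hg.2.2.2⟩
        | exact ⟨hch.symm, hcne hh.2.2.2⟩
        | exact ⟨hci.symm, hcne hi.2.2.2⟩
        | exact ⟨df, d_f⟩
        | exact ⟨dg, d_g⟩
        | exact ⟨hid.symm, Ne.symm hne⟩
        | exact ⟨hge.symm, e_g⟩
        | exact ⟨hhe.symm, e_h⟩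
        | exact ⟨hie.symm, e_i⟩
        | exact ⟨hf'.symm, f_h⟩
        | exact ⟨if'.symm, f_i⟩
        | exact ⟨hg'.symm, g_h⟩
        | exact ⟨ig.symm, g_i⟩
    intro x y hxy
    have hne' : x ≠ y := by rintro rfl; simp [commB] at hxy
    rcases Nat.lt_or_ge x y with hlt | hge'
    · exact up x y hlt hxy
    · have hsym : commB y x = true := by
        have hx : x < 9 := by simp [commB] at hxy; omega
        have hy : y < 9 := by simp [commB] at hxy; omega
        interval_cases x <;> interval_cases y <;> simp [commB, adjB] at hxy ⊢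
      exact ⟨(up y x (by omega) hsym).1.symm, (up y x (by omega) hsym).2.symm⟩
  · exact hboth
  · exact fun w h0 h4 h3 h2 => hlast d (hfp hd) hde hcd w h0 h4 h3 h2

end CfsgLib.Pre22
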