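import Cfsg.Agent.Lib.Fischer.Recognition.Pre.Iso
import Cfsg.Agent.Lib.Fischer.Recognition.Pair.Members

/-!
The condition on pairs follows from the others.
-/

set_option autoImplicit false

namespace CfsgLib.Pre22

open CfsgLib.Fischer CfsgLib.SporRecognition.F22Model

theorem isOfTypeM22 {G : Type*} [Group G] [Finite G] {D : Set G} (hD : Cfsg.IsThreeTranspositionGroup D)
    (hprim : Cfsg.IsPrimitiveUnderConj D) (ht : PreM22 G D) : Cfsg.IsOfTypeM22 G D := by
  obtain ⟨e, he⟩ := exists_equiv hD hprim ht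
  let M : Model G D := Model.ofIso e he
  obtain ⟨F, iF, iF', hF, hE⟩ := exists_equiv_of_type22 hD hprim ht (M.tau_mem 0)
  exact ⟨ht.1, M.tau 0, M.tau_mem 0, M.tau 2, M.tau_mem 2, CfsgLib.Fischer.Recognition.Pair.not_commute M,
    ⟨F, iF, iF', hF, hE⟩, 1, one_ne_zero, CfsgLib.Fischer.Recognition.Pair.pair_quotient M⟩

end CfsgLib.Pre22
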